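import Mathlib

/-!
# Numerical lemmas on powers of two modulo a large divisor of `2 ^ n - 1`

Let `M * m = 2 ^ n - 1` with `m ∣ n`. Then the binary digits of a multiple of `M` are periodic with
a period `d`, `3 * d ≤ n` (or the multiple vanishes). From this:

* `not_dvd_add`: `M` does not divide `2 ^ s + 2 ^ t - 1` when `s ≠ t`;
* `dvd_sub_of_dvd`: `M ∣ 2 ^ s + 2 ^ i - 2 ^ e - 1` implies `n ∣ s + i - e`.
-/

set_option autoImplicit false

namespace Cfsg.Agent.Lib.SuzukiSolv.Numeric

open Finset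

/-- The number with a given set of binary digits. -/
def val (E : Finset ℕ) : ℕ := ∑ e ∈ E, 2 ^ e

theorem val_range (n : ℕ) : val (range n) + 1 = 2 ^ n := by
  induction n with
  | zero => simp [val]
  | succ n ih =>
    unfold val at *
    rw [sum_range_succ, pow_succ]
    omega

theorem val_Ico {a b : ℕ} (h : a ≤ b) : val (Ico a b) + 2 ^ a = 2 ^ b := by
  induction b, h using Nat.le_induction with
  | base => simp [val]
  | succ b hb ih =>
    unfold val at *
    rw [sum_Ico_succ_top hb, pow_succ]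
    omega

theorem val_lt_of_notMem {E : Finset ℕ} {n j : ℕ} (hE : E ⊆ range n) (hj : j < n) (hjE : j ∉ E) :
    val E + 1 < 2 ^ n := by
  have h1 : insert j E ⊆ range n := by
    intro x hx
    rcases mem_insert.mp hx with rfl | hx
    · exact mem_range.mpr hj
    · exact hE hx
  have h2 : val (insert j E) ≤ val (range n) := sum_le_sum_of_subset h1
  have h3 : val (insert j E) = 2 ^ j + val E := by
    unfold val
    rw [sum_insert hjE]
  have h4 := val_range n
  have h5 : 0 < 2 ^ j := by positivity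
  omega

theorem exists_notMem {E : Finset ℕ} {n : ℕ} (hE : E ⊆ range n) (hne : E ≠ range n) :
    ∃ j, j < n ∧ j ∉ E := by
  by_contra hno
  push Not at hno
  apply hne
  apply Subset.antisymm hE
  intro x hx
  exact hno x (mem_range.mp hx)

theorem val_eq_zero {E : Finset ℕ} (h : val E = 0) : E = ∅ := by
  by_contra hne
  obtain ⟨e, he⟩ := nonempty_iff_ne_empty.mpr hne
  have : 2 ^ e ≤ val E := single_le_sum (f := fun e => 2 ^ e) (fun _ _ => Nat.zero_le _) he
  have h5 : 0 < 2 ^ e := by positivity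
  omega

/-- Rotation modulo `2 ^ n - 1`. -/
theorem pow_modEq (n : ℕ) (a : ℕ) : 2 ^ (a % n) ≡ 2 ^ a [MOD 2 ^ n - 1] := by
  have h1 : 2 ^ n ≡ 1 [MOD 2 ^ n - 1] := by
    have h2 : 1 ≤ 2 ^ n := Nat.one_le_two_pow
    exact (Nat.modEq_iff_dvd' h2).mpr (dvd_refl _) |>.symm
  conv_rhs => rw [← Nat.mod_add_div a n, pow_add, pow_mul]
  have h3 := (h1.pow (a / n)).mul_left (2 ^ (a % n))
  simpa using h3.symm

theorem rot_inj {n d : ℕ} {a b : ℕ} (ha : a < n) (hb : b < n) (h : (a + d) % n = (b + d) % n) :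
    a = b := by
  have h1 : (a + d) ≡ (b + d) [MOD n] := h
  have h2 : a ≡ b [MOD n] := Nat.ModEq.add_right_cancel' d h1
  exact Nat.ModEq.eq_of_lt_of_lt h2 ha hb

/-- A period of the digits. -/
theorem mem_iff_of_dvd {n d : ℕ} {E : Finset ℕ} (hn : 0 < n) (hd : d < n) (hE : E ⊆ range n)
    (hne : E ≠ range n) (hdvd : 2 ^ n - 1 ∣ val E * (2 ^ d - 1)) :
    ∀ e, e + d < n → (e ∈ E ↔ e + d ∈ E) := by
  classical
  set R : Finset ℕ := E.image (fun e => (e + d) % n) with hR
  have hinj : Set.InjOn (fun e => (e + d) % n) (E : Set ℕ) := by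
    intro a ha b hb hab
    exact rot_inj (mem_range.mp (hE ha)) (mem_range.mp (hE hb)) hab
  have hRE : R ⊆ range n := by
    intro x hx
    obtain ⟨a, -, rfl⟩ := mem_image.mp hx
    exact mem_range.mpr (Nat.mod_lt _ hn)
  have hRcard : #R = #E := card_image_of_injOn hinj
  have hRne : R ≠ range n := by
    intro h
    apply hne
    apply eq_of_subset_of_card_le hE
    rw [← hRcard, h]
  have hval : val R ≡ val E * 2 ^ d [MOD 2 ^ n - 1] := by
    unfold val
    rw [hR, sum_image hinj, sum_mul]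
    have h1 : ∀ e ∈ E, 2 ^ ((e + d) % n) ≡ 2 ^ e * 2 ^ d [MOD 2 ^ n - 1] := by
      intro e _
      have := pow_modEq n (e + d)
      rwa [pow_add] at this
    unfold Nat.ModEq at *
    rw [sum_nat_mod, sum_nat_mod (s := E) (f := fun e => 2 ^ e * 2 ^ d)]
    congr 1
    exact sum_congr rfl h1
  have hE2 : val E ≡ val E * 2 ^ d [MOD 2 ^ n - 1] := by
    have h2 : 1 ≤ 2 ^ d := Nat.one_le_two_pow
    have h3 : val E * 2 ^ d = val E + val E * (2 ^ d - 1) := by
      obtain ⟨k, hk⟩ : ∃ k, 2 ^ d = k + 1 := ⟨2 ^ d - 1, by omega⟩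
      rw [hk]
      simp only [Nat.add_sub_cancel]
      ring
    rw [h3]
    have h4 : val E * (2 ^ d - 1) ≡ 0 [MOD 2 ^ n - 1] := (Nat.modEq_zero_iff_dvd).mpr hdvd
    have := (h4.add_left (val E)).symm
    simpa using this
  have hlt1 : val R < 2 ^ n - 1 := by
    obtain ⟨j, hj, hjE⟩ := exists_notMem hRE hRne
    have := val_lt_of_notMem hRE hj hjE
    omega
  have hlt2 : val E < 2 ^ n - 1 := by
    obtain ⟨j, hj, hjE⟩ := exists_notMem hE hne
    have := val_lt_of_notMem hE hj hjE
    omega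
  have heq : val R = val E := Nat.ModEq.eq_of_lt_of_lt (hval.trans hE2.symm) hlt1 hlt2
  have hRE' : R = E := Finset.geomSum_injective (le_refl 2) heq
  intro e he
  constructor
  · intro h
    rw [← hRE']
    refine mem_image.mpr ⟨e, h, ?_⟩
    exact Nat.mod_eq_of_lt he
  · intro h
    rw [← hRE'] at h
    obtain ⟨a, ha, hae⟩ := mem_image.mp h
    have ha' : a < n := mem_range.mp (hE ha)
    have h1 : (a + d) % n = (e + d) % n := by
      rw [hae, Nat.mod_eq_of_lt he]
    rw [← rot_inj ha' (by omega) h1]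
    exact ha

/-- The digits only depend on the residue modulo the period. -/
theorem mem_iff_mod {P : ℕ → Prop} {n d : ℕ} (hd : 0 < d)
    (h : ∀ e, e + d < n → (P e ↔ P (e + d))) : ∀ e, e < n → (P e ↔ P (e % d)) := by
  intro e
  induction e using Nat.strong_induction_on with
  | _ e ih =>
    intro he
    by_cases hed : e < d
    · rw [Nat.mod_eq_of_lt hed]
    · have h1 : e - d + d = e := by omega
      have h2 := h (e - d) (by omega)
      rw [h1] at h2
      rw [← h2, ih (e - d) (by omega) (by omega)]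
      congr! 1
      conv_rhs => rw [← h1]
      simp

/-- Either no digit is set, or the digits have a period `d` with `3 * d ≤ n`. -/
theorem empty_or_periodic {n m M : ℕ} (hn : 0 < n) (hM : M * m = 2 ^ n - 1) (hmn : m ∣ n)
    {E : Finset ℕ} (hE : E ⊆ range n) (hne : E ≠ range n) (hdvd : M ∣ val E) :
    E = ∅ ∨ ∃ d, 0 < d ∧ d ∣ n ∧ 3 * d ≤ n ∧ ∀ e, e < n → (e ∈ E ↔ e % d ∈ E) := by
  have hpow : 2 ≤ 2 ^ n := by
    calc 2 = 2 ^ 1 := rfl
      _ ≤ 2 ^ n := Nat.pow_le_pow_right (by norm_num) hn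
  have hm0 : m ≠ 0 := by
    rintro rfl
    simp only [mul_zero] at hM
    omega
  have hodd : Nat.Coprime 2 m := by
    have h1 : m ∣ 2 ^ n - 1 := ⟨M, by rw [← hM]; ring⟩
    rw [Nat.coprime_comm]
    apply Nat.Coprime.coprime_dvd_left h1
    have h2 : Odd (2 ^ n - 1) := by
      obtain ⟨k, hk⟩ : ∃ k, n = k + 1 := ⟨n - 1, by omega⟩
      rw [hk, pow_succ]
      have : 2 ^ k * 2 - 1 = 2 * (2 ^ k - 1) + 1 := by
        have : 1 ≤ 2 ^ k := Nat.one_le_two_pow
        omega
      rw [this]
      exact odd_two_mul_add_one _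
    exact (Nat.coprime_two_right).mpr h2
  by_cases hm1 : m = 1
  · left
    subst hm1
    rw [mul_one] at hM
    obtain ⟨j, hj, hjE⟩ := exists_notMem hE hne
    have h1 := val_lt_of_notMem hE hj hjE
    have h2 : val E = 0 := by
      apply Nat.eq_zero_of_dvd_of_lt hdvd
      omega
    exact val_eq_zero h2
  right
  have hm2 : 2 ≤ m := by omega
  haveI : NeZero m := ⟨hm0⟩
  have hmm : Fact (1 < m) := ⟨by omega⟩
  -- the order of two modulo m
  have h2k : ∀ k, m ∣ 2 ^ k - 1 ↔ (2 : ZMod m) ^ k = 1 := by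
    intro k
    have h1 : 1 ≤ 2 ^ k := Nat.one_le_two_pow
    have h3 : ((2 : ZMod m) ^ k = 1) ↔ ((2 ^ k : ℕ) : ZMod m) = ((1 : ℕ) : ZMod m) := by
      push_cast
      rfl
    rw [h3, ZMod.natCast_eq_natCast_iff, Nat.ModEq.comm, Nat.modEq_iff_dvd' h1]
  have htot : (2 : ZMod m) ^ (Nat.totient m) = 1 := by
    have h1 := Nat.ModEq.pow_totient hodd
    have h2 : ((2 ^ Nat.totient m : ℕ) : ZMod m) = ((1 : ℕ) : ZMod m) :=
      (ZMod.natCast_eq_natCast_iff _ _ _).mpr h1
    push_cast at h2
    exact h2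
  have hnpow : (2 : ZMod m) ^ n = 1 := by
    rw [← h2k]
    exact ⟨M, by rw [← hM]; ring⟩
  have htotpos : 0 < Nat.totient m := Nat.totient_pos.mpr (by omega)
  have htotlt : Nat.totient m < m := Nat.totient_lt m hm2
  set d := orderOf (2 : ZMod m) with hd
  have hdtot : d ∣ Nat.totient m := orderOf_dvd_of_pow_eq_one htot
  have hdn : d ∣ n := orderOf_dvd_of_pow_eq_one hnpow
  have hdpos : 0 < d := Nat.pos_of_dvd_of_pos hdtot htotpos
  have hdlt : d < m := lt_of_le_of_lt (Nat.le_of_dvd htotpos hdtot) htotlt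
  have hmle : m ≤ n := Nat.le_of_dvd hn hmn
  have hdm : m ∣ 2 ^ d - 1 := (h2k d).mpr (pow_orderOf_eq_one _)
  obtain ⟨l, hl⟩ := hdn
  have hl3 : 3 ≤ l := by
    by_contra hlt
    have hl' : l = 0 ∨ l = 1 ∨ l = 2 := by omega
    rcases hl' with rfl | rfl | rfl
    · simp only [mul_zero] at hl
      omega
    · simp only [mul_one] at hl
      omega
    · have h1 : m ∣ 2 * d := by
        rw [mul_comm, ← hl]
        exact hmn
      have h2 : m ∣ d := (Nat.Coprime.dvd_of_dvd_mul_left (Nat.Coprime.symm hodd) h1)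
      have := Nat.le_of_dvd hdpos h2
      omega
  have h3d : 3 * d ≤ n := by
    rw [hl, mul_comm d l]
    exact Nat.mul_le_mul_right d hl3
  have hdnlt : d < n := by omega
  refine ⟨d, hdpos, ⟨l, hl⟩, h3d, ?_⟩
  have hdvd2 : 2 ^ n - 1 ∣ val E * (2 ^ d - 1) := by
    rw [← hM]
    exact mul_dvd_mul hdvd hdm
  have h1 := mem_iff_of_dvd hn hdnlt hE hne hdvd2
  exact mem_iff_mod (P := fun e => e ∈ E) hdpos h1

/-- The predecessor in the cycle. -/
def prd (n j : ℕ) : ℕ := if j = 0 then n - 1 else j - 1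

/-- A periodic non-constant pattern has a run start in each period. -/
theorem exists_start {P : ℕ → Prop} {n d : ℕ} (hd : 0 < d) (hdn : d ∣ n) (hdlt : d ≤ n)
    (hP : ∀ e, e < n → (P e ↔ P (e % d))) (h1 : ∃ e, e < n ∧ P e) (h2 : ∃ e, e < n ∧ ¬ P e) :
    ∃ r, r < d ∧ ∀ q, r + q * d < n → P (r + q * d) ∧ ¬ P (prd n (r + q * d)) := by
  classical
  have hsub : ∀ r, r < d → (P r ↔ P (r % d)) := fun r hr => by rw [Nat.mod_eq_of_lt hr]
  obtain ⟨e1, he1, hp1⟩ := h1
  obtain ⟨e2, he2, hp2⟩ := h2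
  have hr1 : P (e1 % d) := (hP e1 he1).mp hp1
  have hr2 : ¬ P (e2 % d) := fun h => hp2 ((hP e2 he2).mpr h)
  have hl1 : e1 % d < d := Nat.mod_lt _ hd
  have hl2 : e2 % d < d := Nat.mod_lt _ hd
  -- a transition on the cycle of residues
  have hex : ∃ r, r < d ∧ P r ∧ ¬ P ((r + d - 1) % d) := by
    by_contra hno
    push Not at hno
    have hdown : ∀ r, r < d → P r → ∀ k, k ≤ r → P k := by
      intro r hr hPr k hk
      induction r, hk using Nat.le_induction with
      | base => exact hPr
      | succ r hkr ih =>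
        apply ih (by omega)
        have := hno (r + 1) hr hPr
        have e : (r + 1 + d - 1) % d = r := by
          have : r + 1 + d - 1 = r + d := by omega
          rw [this, Nat.add_mod_right, Nat.mod_eq_of_lt (by omega)]
        rwa [e] at this
    have h0 : P 0 := hdown _ hl1 hr1 0 (Nat.zero_le _)
    have htop : P (d - 1) := by
      have := hno 0 hd h0
      have e : (0 + d - 1) % d = d - 1 := by
        rw [Nat.zero_add, Nat.mod_eq_of_lt (by omega)]
      rwa [e] at this
    exact hr2 (hdown _ (by omega) htop _ (by omega))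
  obtain ⟨r, hr, hPr, hPr'⟩ := hex
  refine ⟨r, hr, fun q hq => ?_⟩
  have hmod : (r + q * d) % d = r := by
    rw [Nat.add_mul_mod_self_right, Nat.mod_eq_of_lt hr]
  refine ⟨(hP _ hq).mpr (by rwa [hmod]), ?_⟩
  intro hcon
  apply hPr'
  have hpn : prd n (r + q * d) < n := by
    unfold prd
    split_ifs with h0
    · omega
    · omega
  have h3 := (hP _ hpn).mp hcon
  have h4 : prd n (r + q * d) % d = (r + d - 1) % d := by
    unfold prd
    split_ifs with h0
    · have hr0 : r = 0 := by omega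
      subst hr0
      obtain ⟨l, hl⟩ := hdn
      have hl0 : 0 < l := by
        rcases Nat.eq_zero_or_pos l with rfl | h
        · simp only [mul_zero] at hl
          omega
        · exact h
      have e : n - 1 = (d - 1) + (l - 1) * d := by
        rw [hl]
        obtain ⟨l', rfl⟩ : ∃ l', l = l' + 1 := ⟨l - 1, by omega⟩
        obtain ⟨d', hd'⟩ : ∃ d', d = d' + 1 := ⟨d - 1, by omega⟩
        subst hd'
        simp only [Nat.add_sub_cancel]
        ring_nf
        omega
      rw [e, Nat.add_mul_mod_self_right]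
      simp
    · by_cases hr0 : r = 0
      · subst hr0
        have hq0 : 0 < q := by
          rcases Nat.eq_zero_or_pos q with rfl | h
          · simp at h0
          · exact h
        obtain ⟨q', rfl⟩ : ∃ q', q = q' + 1 := ⟨q - 1, by omega⟩
        have e : 0 + (q' + 1) * d - 1 = (d - 1) + q' * d := by
          have : (q' + 1) * d = q' * d + d := by ring
          rw [this]
          omega
        rw [e, Nat.add_mul_mod_self_right]
        simp
      · have e : r + q * d - 1 = (r - 1) + q * d := by omega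
        have e2 : r + d - 1 = (r - 1) + 1 * d := by omega
        rw [e, e2, Nat.add_mul_mod_self_right, Nat.add_mul_mod_self_right]
  rwa [h4] at h3

section Main

variable {n m M : ℕ}

/-- `2 ^ s + 2 ^ t - 1` is not a multiple of `M` for `t < s`. -/
theorem not_dvd_add_aux (hn : 0 < n) (hM : M * m = 2 ^ n - 1) (hmn : m ∣ n) {s t : ℕ} (hs : s < n)
    (hst : t < s) : ¬ M ∣ 2 ^ s + 2 ^ t - 1 := by
  intro hdvd
  classical
  set E : Finset ℕ := range t ∪ {s} with hEdef
  have hmem : ∀ j, j ∈ E ↔ j < t ∨ j = s := by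
    intro j
    simp only [hEdef, mem_union, mem_range, mem_singleton]
  have hsub : E ⊆ range n := by
    intro j hj
    rcases (hmem j).mp hj with h | h
    · exact mem_range.mpr (by omega)
    · exact mem_range.mpr (by omega)
  have htE : t ∉ E := by
    rw [hmem]
    omega
  have hne : E ≠ range n := by
    intro h
    apply htE
    rw [h]
    exact mem_range.mpr (by omega)
  have hval : val E = 2 ^ s + 2 ^ t - 1 := by
    have h1 : val E = val (range t) + 2 ^ s := by
      unfold val
      rw [hEdef, sum_union (by simp; omega)]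
      simp
    have h2 := val_range t
    omega
  rw [← hval] at hdvd
  have hsE : s ∈ E := (hmem s).mpr (Or.inr rfl)
  rcases empty_or_periodic hn hM hmn hsub hne hdvd with h | ⟨d, hd, hdn, h3, hper⟩
  · rw [h] at hsE
    simp at hsE
  · obtain ⟨r, hr, hst2⟩ := exists_start (P := fun e => e ∈ E) hd hdn (by omega) hper
      ⟨s, hs, hsE⟩ ⟨t, by omega, htE⟩
    have key : ∀ j, j < n → j ∈ E → prd n j ∉ E → j = 0 ∨ j = s := by
      intro j _ hj hp
      by_cases h0 : j = 0
      · exact Or.inl h0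
      right
      unfold prd at hp
      rw [if_neg h0, hmem] at hp
      rcases (hmem j).mp hj with h | h
      · omega
      · exact h
    have h0 := hst2 0 (by omega)
    have h1 := hst2 1 (by omega)
    have h2 := hst2 2 (by omega)
    have k0 := key _ (by omega) h0.1 h0.2
    have k1 := key _ (by omega) h1.1 h1.2
    have k2 := key _ (by omega) h2.1 h2.2
    omega

/-- `M` does not divide `2 ^ s + 2 ^ t - 1` for `s ≠ t`. -/
theorem not_dvd_add (hn : 0 < n) (hM : M * m = 2 ^ n - 1) (hmn : m ∣ n) {s t : ℕ} (hs : s < n)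
    (ht : t < n) (hst : s ≠ t) : ¬ M ∣ 2 ^ s + 2 ^ t - 1 := by
  rcases lt_or_gt_of_ne hst with h | h
  · rw [add_comm]
    exact not_dvd_add_aux hn hM hmn ht h
  · exact not_dvd_add_aux hn hM hmn hs h

/-- The main numerical lemma, when `e ≤ s ≤ i`. -/
theorem aux_A (hn : 0 < n) (hM : M * m = 2 ^ n - 1) (hmn : m ∣ n) {s i e : ℕ} (hi : i < n)
    (hsi : s ≤ i) (hes : e ≤ s) (hdvd : M ∣ 2 ^ s + 2 ^ i - 2 ^ e - 1) : n ∣ s + i - e ∧ e ≤ s + i := by
  classical
  refine ⟨?_, by omega⟩
  by_cases hse : e = s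
  · -- one run
    subst hse
    have h1 : 2 ^ e + 2 ^ i - 2 ^ e - 1 = val (range i) := by
      have := val_range i
      omega
    rw [h1] at hdvd
    by_cases hi0 : i = 0
    · subst hi0
      have : e = 0 := by omega
      subst this
      simp
    have hne : range i ≠ range n := by
      intro h
      have : i ∈ range n := mem_range.mpr hi
      rw [← h] at this
      simp at this
    rcases empty_or_periodic hn hM hmn (range_subset_range.mpr hi.le) hne hdvd with h | ⟨d, hd, hdn, h3, hper⟩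
    · have : 0 ∈ range i := mem_range.mpr (by omega)
      rw [h] at this
      simp at this
    · exfalso
      obtain ⟨r, hr, hst2⟩ := exists_start (P := fun e => e ∈ range i) hd hdn (by omega) hper
        ⟨0, hn, mem_range.mpr (by omega)⟩ ⟨i, hi, by simp⟩
      have h0 := hst2 0 (by omega)
      have h1 := hst2 1 (by omega)
      have key : ∀ j, j ∈ range i → prd n j ∉ range i → j = 0 := by
        intro j hj hp
        by_contra h0
        unfold prd at hp
        rw [if_neg h0] at hp
        simp only [mem_range] at hj hp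
        omega
      have k0 := key _ h0.1 h0.2
      have k1 := key _ h1.1 h1.2
      omega
  -- three runs
  have hes' : e < s := by omega
  set E : Finset ℕ := range e ∪ Ico (e + 1) s ∪ {i} with hEdef
  have hmem : ∀ j, j ∈ E ↔ j < e ∨ (e + 1 ≤ j ∧ j < s) ∨ j = i := by
    intro j
    simp only [hEdef, mem_union, mem_range, mem_singleton, mem_Ico, or_assoc]
  have hsub : E ⊆ range n := by
    intro j hj
    rcases (hmem j).mp hj with h | h | h
    · exact mem_range.mpr (by omega)
    · exact mem_range.mpr (by omega)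
    · exact mem_range.mpr (by omega)
  have heE : e ∉ E := by
    rw [hmem]
    omega
  have hne : E ≠ range n := by
    intro h
    apply heE
    rw [h]
    exact mem_range.mpr (by omega)
  have hval : val E = 2 ^ s + 2 ^ i - 2 ^ e - 1 := by
    have h1 : val E = val (range e) + val (Ico (e + 1) s) + 2 ^ i := by
      unfold val
      rw [hEdef, sum_union, sum_union]
      · simp
      · rw [disjoint_left]
        intro a ha hb
        simp only [mem_range, mem_Ico] at ha hb
        omega
      · rw [disjoint_left]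
        intro a ha hb
        simp only [mem_union, mem_range, mem_Ico, mem_singleton] at ha hb
        omega
    have h2 := val_range e
    have h3 := val_Ico (show e + 1 ≤ s by omega)
    have h4 : 2 ^ (e + 1) = 2 * 2 ^ e := by ring
    omega
  rw [← hval] at hdvd
  have hiE : i ∈ E := (hmem i).mpr (Or.inr (Or.inr rfl))
  rcases empty_or_periodic hn hM hmn hsub hne hdvd with h | ⟨d, hd, hdn, h3, hper⟩
  · rw [h] at hiE
    simp at hiE
  · have hper' : ∀ e, e < n → (e ∉ E ↔ e % d ∉ E) := fun e he => not_congr (hper e he)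
    obtain ⟨r, hr, hst2⟩ := exists_start (P := fun e => e ∈ E) hd hdn (by omega) hper
      ⟨i, hi, hiE⟩ ⟨e, by omega, heE⟩
    obtain ⟨r', hr', hst3⟩ := exists_start (P := fun e => e ∉ E) hd hdn (by omega) hper'
      ⟨e, by omega, heE⟩ ⟨i, hi, not_not.mpr hiE⟩
    have key : ∀ j, j ∈ E → prd n j ∉ E → j = 0 ∨ j = e + 1 ∨ j = i := by
      intro j hj hp
      by_cases h0 : j = 0
      · exact Or.inl h0
      right
      unfold prd at hp
      rw [if_neg h0, hmem] at hp
      rcases (hmem j).mp hj with h | h | h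
      · omega
      · omega
      · omega
    have key' : ∀ j, j ∉ E → ¬ prd n j ∉ E → j = e ∨ j = s ∨ j = i + 1 := by
      intro j hj hp
      rw [not_not] at hp
      rw [hmem] at hj
      by_cases h0 : j = 0
      · left
        omega
      unfold prd at hp
      rw [if_neg h0, hmem] at hp
      omega
    have h0 := hst2 0 (by omega)
    have h1 := hst2 1 (by omega)
    have h2 := hst2 2 (by omega)
    have k0 := key _ h0.1 h0.2
    have k1 := key _ h1.1 h1.2
    have k2 := key _ h2.1 h2.2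
    have l0 := hst3 0 (by omega)
    have l1 := hst3 1 (by omega)
    have l2 := hst3 2 (by omega)
    have m0 := key' _ l0.1 l0.2
    have m1 := key' _ l1.1 l1.2
    have m2 := key' _ l2.1 l2.2
    have hn3 : r + 3 * d ≥ n := by
      by_contra hlt
      have h3' := hst2 3 (by omega)
      have k3 := key _ h3'.1 h3'.2
      omega
    have hfin : n = 6 ∧ s = 3 ∧ i = 4 ∧ e = 1 := by
      omega
    obtain ⟨rfl, rfl, rfl, rfl⟩ := hfin
    norm_num

/-- The main numerical lemma, when `s < e ≤ i`. -/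
theorem aux_B (hn : 0 < n) (hM : M * m = 2 ^ n - 1) (hmn : m ∣ n) {s i e : ℕ} (hi : i < n)
    (hse : s < e) (hei : e ≤ i) (hdvd : M ∣ 2 ^ s + 2 ^ i - 2 ^ e - 1) : s + i = e := by
  classical
  set E : Finset ℕ := range s ∪ Ico e i with hEdef
  have hmem : ∀ j, j ∈ E ↔ j < s ∨ (e ≤ j ∧ j < i) := by
    intro j
    simp only [hEdef, mem_union, mem_range, mem_Ico]
  have hsub : E ⊆ range n := by
    intro j hj
    rcases (hmem j).mp hj with h | h
    · exact mem_range.mpr (by omega)
    · exact mem_range.mpr (by omega)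
  have hsE : s ∉ E := by
    rw [hmem]
    omega
  have hne : E ≠ range n := by
    intro h
    apply hsE
    rw [h]
    exact mem_range.mpr (by omega)
  have hval : val E = 2 ^ s + 2 ^ i - 2 ^ e - 1 := by
    have h1 : val E = val (range s) + val (Ico e i) := by
      unfold val
      rw [hEdef, sum_union]
      rw [disjoint_left]
      intro a ha hb
      simp only [mem_range, mem_Ico] at ha hb
      omega
    have h2 := val_range s
    have h3 := val_Ico hei
    omega
  rw [← hval] at hdvd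
  rcases empty_or_periodic hn hM hmn hsub hne hdvd with h | ⟨d, hd, hdn, h3, hper⟩
  · by_contra hcon
    have hex : (s ≠ 0) ∨ (e < i) := by omega
    rcases hex with h1 | h1
    · have : 0 ∈ E := (hmem 0).mpr (Or.inl (by omega))
      rw [h] at this
      simp at this
    · have : e ∈ E := (hmem e).mpr (Or.inr ⟨le_refl _, h1⟩)
      rw [h] at this
      simp at this
  · by_contra hcon
    have hex : ∃ a, a < n ∧ a ∈ E := by
      have hex : (s ≠ 0) ∨ (e < i) := by omega
      rcases hex with h1 | h1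
      · exact ⟨0, by omega, (hmem 0).mpr (Or.inl (by omega))⟩
      · exact ⟨e, by omega, (hmem e).mpr (Or.inr ⟨le_refl _, h1⟩)⟩
    obtain ⟨r, hr, hst2⟩ := exists_start (P := fun e => e ∈ E) hd hdn (by omega) hper
      hex ⟨s, by omega, hsE⟩
    have key : ∀ j, j ∈ E → prd n j ∉ E → j = 0 ∨ j = e := by
      intro j hj hp
      by_cases h0 : j = 0
      · exact Or.inl h0
      right
      unfold prd at hp
      rw [if_neg h0, hmem] at hp
      rcases (hmem j).mp hj with h | h
      · omega
      · omega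
    have h0 := hst2 0 (by omega)
    have h1 := hst2 1 (by omega)
    have h2 := hst2 2 (by omega)
    have k0 := key _ h0.1 h0.2
    have k1 := key _ h1.1 h1.2
    have k2 := key _ h2.1 h2.2
    omega

/-- The symmetric form of the main numerical lemma. -/
theorem aux_le (hn : 0 < n) (hM : M * m = 2 ^ n - 1) (hmn : m ∣ n) {s i e : ℕ} (hsi : s ≤ i)
    (hi : i < n) (he : e < n) (h : (M : ℤ) ∣ 2 ^ s + 2 ^ i - 2 ^ e - 1) :
    (n : ℤ) ∣ (s : ℤ) + i - e := by
  have hA : ∀ {s i e : ℕ}, s ≤ i → i < n → e ≤ s → (M : ℤ) ∣ 2 ^ s + 2 ^ i - 2 ^ e - 1 →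
      (n : ℤ) ∣ (s : ℤ) + i - e := by
    intro s i e hsi hi hes h
    have hcast : ((2 ^ s + 2 ^ i - 2 ^ e - 1 : ℕ) : ℤ) = 2 ^ s + 2 ^ i - 2 ^ e - 1 := by
      have h1 : 2 ^ e ≤ 2 ^ s := Nat.pow_le_pow_right (by norm_num) hes
      have h2 : 1 ≤ 2 ^ i := Nat.one_le_two_pow
      have h3 : 2 ^ s + 2 ^ i - 2 ^ e - 1 + 2 ^ e + 1 = 2 ^ s + 2 ^ i := by omega
      have h4 := congrArg (Nat.cast : ℕ → ℤ) h3
      push_cast at h4 ⊢
      linarith
    rw [← hcast, Int.natCast_dvd_natCast] at h
    obtain ⟨h1, h2⟩ := aux_A hn hM hmn hi hsi hes h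
    have h3 : ((s + i - e : ℕ) : ℤ) = (s : ℤ) + i - e := by
      push_cast [Nat.cast_sub h2]
      ring
    rw [← h3, Int.natCast_dvd_natCast]
    exact h1
  by_cases hes : e ≤ s
  · exact hA hsi hi hes h
  by_cases hei : e ≤ i
  · have hse : s < e := by omega
    have hcast : ((2 ^ s + 2 ^ i - 2 ^ e - 1 : ℕ) : ℤ) = 2 ^ s + 2 ^ i - 2 ^ e - 1 := by
      have h1 : 2 ^ e ≤ 2 ^ i := Nat.pow_le_pow_right (by norm_num) hei
      have h2 : 1 ≤ 2 ^ s := Nat.one_le_two_pow
      have h3 : 2 ^ s + 2 ^ i - 2 ^ e - 1 + 2 ^ e + 1 = 2 ^ s + 2 ^ i := by omega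
      have h4 := congrArg (Nat.cast : ℕ → ℤ) h3
      push_cast at h4 ⊢
      linarith
    rw [← hcast, Int.natCast_dvd_natCast] at h
    have h1 := aux_B hn hM hmn hi hse hei h
    have h2 : (s : ℤ) + i - e = 0 := by
      have := congrArg (Nat.cast : ℕ → ℤ) h1
      push_cast at this
      linarith
    rw [h2]
    exact dvd_zero _
  -- rotate
  have hie : i < e := by omega
  have hsum : (M : ℤ) ∣ 2 ^ (s + (n - e)) + 2 ^ (i + (n - e)) - 2 ^ (n - e) - 1 := by
    have h1 : (M : ℤ) ∣ 2 ^ n - 1 := by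
      have h2 : ((2 ^ n - 1 : ℕ) : ℤ) = 2 ^ n - 1 := by
        have h3 : 1 ≤ 2 ^ n := Nat.one_le_two_pow
        push_cast [Nat.cast_sub h3]
        ring
      rw [← h2, ← hM]
      push_cast
      exact dvd_mul_right _ _
    have h3 : (2 : ℤ) ^ (s + (n - e)) + 2 ^ (i + (n - e)) - 2 ^ (n - e) - 1 =
        2 ^ (n - e) * (2 ^ s + 2 ^ i - 2 ^ e - 1) + (2 ^ n - 1) := by
      have h4 : (2 : ℤ) ^ (n - e) * 2 ^ e = 2 ^ n := by
        rw [← pow_add]
        congr 1
        omega
      rw [pow_add, pow_add]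
      linear_combination h4
    rw [h3]
    exact dvd_add (Dvd.dvd.mul_left h _) h1
  have h5 := hA (s := s + (n - e)) (i := i + (n - e)) (e := n - e) (by omega) (by omega) (by omega) hsum
  have h6 : ((s + (n - e) : ℕ) : ℤ) + ((i + (n - e) : ℕ) : ℤ) - ((n - e : ℕ) : ℤ) =
      (s : ℤ) + i - e + n := by
    have : e ≤ n := he.le
    push_cast [Nat.cast_sub this]
    ring
  rw [h6] at h5
  exact (dvd_add_self_right).mp h5

/-- If `M` divides `2 ^ s + 2 ^ i - 2 ^ e - 1` then `n` divides `s + i - e`. -/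
theorem dvd_sub_of_dvd (hn : 0 < n) (hM : M * m = 2 ^ n - 1) (hmn : m ∣ n) {s i e : ℕ} (hs : s < n)
    (hi : i < n) (he : e < n) (h : (M : ℤ) ∣ 2 ^ s + 2 ^ i - 2 ^ e - 1) :
    (n : ℤ) ∣ (s : ℤ) + i - e := by
  rcases le_total s i with hsi | hsi
  · exact aux_le hn hM hmn hsi hi he h
  · have h' : (M : ℤ) ∣ 2 ^ i + 2 ^ s - 2 ^ e - 1 := by
      have e1 : (2 : ℤ) ^ i + 2 ^ s - 2 ^ e - 1 = 2 ^ s + 2 ^ i - 2 ^ e - 1 := by ring
      rw [e1]
      exact h
    have := aux_le hn hM hmn hsi hs he h'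
    have e1 : (i : ℤ) + s - e = (s : ℤ) + i - e := by ring
    rwa [e1] at this

theorem sq_add_two_le {n : ℕ} (h5 : 5 ≤ n) : n ^ 2 + 2 ≤ 2 ^ n := by
  induction n, h5 using Nat.le_induction with
  | base => norm_num
  | succ k hk ih =>
    have h1 : 2 ^ (k + 1) = 2 * 2 ^ k := by ring
    rw [h1]
    nlinarith

/-- A size estimate: a subfield of index at least two is not larger than `M`. -/
theorem le_of_sq_le {w : ℕ} (hn : 2 ≤ n) (hM : M * m = 2 ^ n - 1) (hmn : m ∣ n) (hw : w ^ 2 ≤ 2 ^ n) :
    w ≤ M := by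
  have hn0 : 0 < n := by omega
  have hmle : m ≤ n := Nat.le_of_dvd hn0 hmn
  have hp1 : 1 ≤ 2 ^ n := Nat.one_le_two_pow
  by_cases h5 : 5 ≤ n
  · have hpow : n ^ 2 + 2 ≤ 2 ^ n := sq_add_two_le h5
    have hm2 : m ^ 2 ≤ n ^ 2 := Nat.pow_le_pow_left hmle 2
    have h2 : 2 * (w * m) ≤ w ^ 2 + m ^ 2 := by
      have := two_mul_le_add_sq w m
      nlinarith
    have h3 : w * m ≤ M * m := by
      rw [hM]
      omega
    have hm0 : 0 < m := by
      rcases Nat.eq_zero_or_pos m with rfl | h
      · simp only [mul_zero] at hM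
        have : 2 ^ 2 ≤ 2 ^ n := Nat.pow_le_pow_right (by norm_num) hn
        omega
      · exact h
    exact Nat.le_of_mul_le_mul_right h3 hm0
  · have hn' : n ≤ 4 := by omega
    interval_cases n
    · have hw' : w ≤ 2 := by nlinarith
      interval_cases m <;> first | omega | (exfalso; revert hmn; decide)
    · have hw' : w ≤ 2 := by nlinarith
      interval_cases m <;> first | omega | (exfalso; revert hmn; decide)
    · have hw' : w ≤ 4 := by nlinarith
      interval_cases m <;> first | omega | (exfalso; revert hmn; decide)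

end Main

end Cfsg.Agent.Lib.SuzukiSolv.Numeric
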