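import Mathlib
import Cfsg.Agent.Lib.SuzukiSolv.Numeric

/-!
# Automorphisms of a finite field of characteristic two and a large multiplicative subgroup

`F` is a field with `2 ^ n` elements and `a₀` has order `M` with `M * m = 2 ^ n - 1`, `m ∣ n`.
-/

set_option autoImplicit false
set_option linter.unusedSectionVars false
set_option linter.style.haveILetI false

namespace Cfsg.Agent.Lib.SuzukiSolv.FieldNum

open Cfsg.Agent.Lib.SuzukiSolv.Numeric

variable {F : Type*} [Field F] [Fintype F] [CharP F 2] {n : ℕ}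

theorem finrank_eq (hcard : Fintype.card F = 2 ^ n) [Algebra (ZMod 2) F] :
    Module.finrank (ZMod 2) F = n := by
  haveI : Fact (Nat.Prime 2) := ⟨Nat.prime_two⟩
  haveI : Module.Finite (ZMod 2) F := Module.Finite.of_finite
  have h := Module.natCard_eq_pow_finrank (K := ZMod 2) (V := F)
  rw [Nat.card_eq_fintype_card, hcard, Nat.card_zmod] at h
  exact (Nat.pow_right_injective (le_refl 2) h).symm

/-- Every automorphism is a power of the Frobenius map. -/
theorem exists_frob (hcard : Fintype.card F = 2 ^ n) (σ : F ≃+* F) :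
    ∃ s, s < n ∧ ∀ x : F, σ x = x ^ 2 ^ s := by
  haveI : Fact (Nat.Prime 2) := ⟨Nat.prime_two⟩
  letI := ZMod.algebra F 2
  have hn := finrank_eq (F := F) hcard
  let σ' : F ≃ₐ[ZMod 2] F := AlgEquiv.ofRingEquiv (f := σ) (by
    intro r
    have : ((σ : F →+* F).comp (algebraMap (ZMod 2) F)) = algebraMap (ZMod 2) F :=
      RingHom.ext_zmod _ _
    exact DFunLike.congr_fun this r)
  obtain ⟨⟨s, hs⟩, hs'⟩ := (FiniteField.bijective_frobeniusAlgEquivOfAlgebraic_pow (ZMod 2) F).2 σ'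
  refine ⟨s, hn ▸ hs, fun x => ?_⟩
  have h1 : σ x = σ' x := rfl
  have h2 : σ' x = (FiniteField.frobeniusAlgEquivOfAlgebraic (ZMod 2) F ^ s) x := by
    rw [← hs']
  rw [h1, h2, AlgEquiv.coe_pow, FiniteField.coe_frobeniusAlgEquivOfAlgebraic_iterate, ZMod.card]

theorem frob_inj (hcard : Fintype.card F = 2 ^ n) {s t : ℕ} (hs : s < n) (ht : t < n)
    (h : ∀ x : F, x ^ 2 ^ s = x ^ 2 ^ t) : s = t := by
  haveI : Fact (Nat.Prime 2) := ⟨Nat.prime_two⟩
  letI := ZMod.algebra F 2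
  have hn := finrank_eq (F := F) hcard
  have key := (FiniteField.bijective_frobeniusAlgEquivOfAlgebraic_pow (ZMod 2) F).1
    (a₁ := ⟨s, hn.symm ▸ hs⟩) (a₂ := ⟨t, hn.symm ▸ ht⟩) (by
      ext x
      simp only [AlgEquiv.coe_pow, FiniteField.coe_frobeniusAlgEquivOfAlgebraic_iterate, ZMod.card]
      exact h x)
  exact congrArg Fin.val key

theorem pow_two_pow_n (hcard : Fintype.card F = 2 ^ n) (x : F) : x ^ 2 ^ n = x := by
  rw [← hcard]
  exact FiniteField.pow_card x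

theorem pow_two_pow_mod (hcard : Fintype.card F = 2 ^ n) (x : F) (k : ℕ) :
    x ^ 2 ^ k = x ^ 2 ^ (k % n) := by
  conv_lhs => rw [← Nat.mod_add_div k n]
  generalize k % n = r
  generalize k / n = q
  induction q with
  | zero => simp
  | succ q ih =>
    have e : r + n * (q + 1) = (r + n * q) + n := by ring
    rw [e, pow_add, pow_mul, pow_two_pow_n hcard, ih]

variable {a₀ : F} {m : ℕ}

theorem a₀ne1 (hn : 2 ≤ n) (hM : orderOf a₀ * m = 2 ^ n - 1) (hmn : m ∣ n) : a₀ ≠ 1 := by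
  rintro rfl
  rw [orderOf_one, one_mul] at hM
  have h1 : m ≤ n := Nat.le_of_dvd (by omega) hmn
  have h2 : ∀ k, 2 ≤ k → k + 2 ≤ 2 ^ k := by
    intro k hk
    induction k, hk using Nat.le_induction with
    | base => norm_num
    | succ k hk ih =>
      rw [pow_succ]
      omega
  have := h2 n hn
  omega

/-- The product of two distinct conjugates of `a₀` is not `a₀`. -/
theorem hnum (hcard : Fintype.card F = 2 ^ n) (hn : 2 ≤ n) (ha : a₀ ≠ 0)
    (hM : orderOf a₀ * m = 2 ^ n - 1) (hmn : m ∣ n) (σ τ : F ≃+* F) (hστ : σ ≠ τ) :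
    σ a₀ * τ a₀ ≠ a₀ := by
  obtain ⟨s, hs, hσ⟩ := exists_frob hcard σ
  obtain ⟨t, ht, hτ⟩ := exists_frob hcard τ
  have hst : s ≠ t := by
    rintro rfl
    apply hστ
    ext x
    rw [hσ, hτ]
  intro h
  rw [hσ, hτ, ← pow_add] at h
  apply not_dvd_add (by omega) hM hmn hs ht hst
  apply orderOf_dvd_of_pow_eq_one
  have h1 : 1 ≤ 2 ^ s + 2 ^ t := by
    have h0 := Nat.one_le_two_pow (n := s)
    exact le_trans h0 (Nat.le_add_right _ _)
  have h2 : a₀ ^ (2 ^ s + 2 ^ t - 1) * a₀ = a₀ := by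
    rw [← pow_succ, Nat.sub_add_cancel h1, h]
  exact mul_eq_right₀ ha |>.mp h2

/-- The conjugacy statement for the quotients `a₀ / σ a₀`. -/
theorem hconj (hcard : Fintype.card F = 2 ^ n) (hn : 2 ≤ n) (ha : a₀ ≠ 0)
    (hM : orderOf a₀ * m = 2 ^ n - 1) (hmn : m ∣ n) (σ τ ρ : F ≃+* F)
    (h : ρ (a₀ / σ a₀) = a₀ / τ a₀) : σ = τ := by
  obtain ⟨s, hs, hσ⟩ := exists_frob hcard σ
  obtain ⟨t, ht, hτ⟩ := exists_frob hcard τ
  obtain ⟨i, hi, hρ⟩ := exists_frob hcard ρ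
  have hn0 : 0 < n := by omega
  have hσa : σ a₀ ≠ 0 := by simpa using ha
  have hτa : τ a₀ ≠ 0 := by simpa using ha
  have hρa : ρ (σ a₀) ≠ 0 := by simpa using ha
  rw [map_div₀, div_eq_div_iff hρa hτa] at h
  -- `ρ a₀ * τ a₀ = a₀ * ρ (σ a₀)`
  set e := (s + i) % n with he
  have hen : e < n := Nat.mod_lt _ hn0
  have h1 : ρ (σ a₀) = a₀ ^ 2 ^ e := by
    rw [hρ, hσ, ← pow_mul, ← pow_add, he]
    exact pow_two_pow_mod hcard a₀ _
  rw [h1, hρ, hτ, ← pow_add, ← pow_succ'] at h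
  let u : Fˣ := Units.mk0 a₀ ha
  have hu : orderOf u = orderOf a₀ := (orderOf_units (y := u)).symm
  have h2 : u ^ (2 ^ i + 2 ^ t) = u ^ (2 ^ e + 1) := by
    apply Units.ext
    simpa [u] using h
  have h3 : (orderOf u : ℤ) ∣ (2 : ℤ) ^ t + 2 ^ i - 2 ^ e - 1 := by
    rw [orderOf_dvd_iff_zpow_eq_one]
    have e1 : ((2 : ℤ) ^ t + 2 ^ i - 2 ^ e - 1) =
        ((2 ^ i + 2 ^ t : ℕ) : ℤ) - ((2 ^ e + 1 : ℕ) : ℤ) := by
      push_cast
      ring
    rw [e1, zpow_sub, zpow_natCast, zpow_natCast, h2, mul_inv_cancel]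
  rw [hu] at h3
  have h4 := dvd_sub_of_dvd hn0 hM hmn ht hi hen h3
  -- `n ∣ s + i - e`
  have h5 : (n : ℤ) ∣ (s : ℤ) + i - e := by
    have e2 : n * ((s + i) / n) + e = s + i := Nat.div_add_mod (s + i) n
    have e3 : (n : ℤ) * (((s + i) / n : ℕ) : ℤ) + (e : ℤ) = (s : ℤ) + i := by
      exact_mod_cast e2
    refine ⟨(((s + i) / n : ℕ) : ℤ), ?_⟩
    linarith
  have h6 : (n : ℤ) ∣ (t : ℤ) - s := by
    have := dvd_sub h4 h5
    have e3 : (t : ℤ) + i - e - ((s : ℤ) + i - e) = (t : ℤ) - s := by ring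
    rwa [e3] at this
  have h7 : (t : ℤ) - s = 0 := by
    apply Int.eq_zero_of_abs_lt_dvd h6
    rw [abs_lt]
    constructor <;> omega
  have h8 : s = t := by omega
  subst h8
  ext x
  rw [hσ, hτ]

/-- A proper fixed field is small. -/
theorem hfix (hcard : Fintype.card F = 2 ^ n) (hn : 2 ≤ n)
    (hM : orderOf a₀ * m = 2 ^ n - 1) (hmn : m ∣ n) (σ : F ≃+* F) (hσ : σ ≠ 1) :
    Nat.card {x : F // σ x = x} ≤ orderOf a₀ := by
  classical
  apply le_of_sq_le hn hM hmn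
  obtain ⟨x₀, hx₀⟩ : ∃ x₀, σ x₀ ≠ x₀ := by
    by_contra hcon
    push Not at hcon
    apply hσ
    ext x
    rw [hcon x]
    rfl
  rw [← hcard, ← Nat.card_eq_fintype_card, pow_two, ← Nat.card_prod]
  apply Nat.card_le_card_of_injective
    (fun p : {x : F // σ x = x} × {x : F // σ x = x} => (p.1 : F) + p.2 * x₀)
  rintro ⟨⟨a, ha⟩, ⟨b, hb⟩⟩ ⟨⟨a', ha'⟩, ⟨b', hb'⟩⟩ h
  simp only at h
  have hbb : b = b' := by
    by_contra hne
    have h1 : b - b' ≠ 0 := sub_ne_zero.mpr hne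
    have h2 : x₀ = (a' - a) / (b - b') := by
      field_simp
      linear_combination h
    apply hx₀
    rw [h2, map_div₀, map_sub, map_sub, ha, ha', hb, hb']
  subst hbb
  have haa : a = a' := by linear_combination h
  subst haa
  rfl

end Cfsg.Agent.Lib.SuzukiSolv.FieldNum
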