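import Mathlib
import Cfsg.Agent.Lib.RankOne.FieldAut

/-!
# The abstract core of Higman's theorem for semilinear groups of automorphisms

Let `F` be a finite field of characteristic two, `Y` an elementary abelian 2-group, `T : Y → End F`
additive and faithful, `S : Y → F` quadratic with polar form `B`, with the relation
`T h (S g) = B h g + T g (B h g)`. If `α` is an automorphism of `Y` covering the multiplication by
`a₀` and if the numbers attached to `a₀` are large, then `S = 0`.

Every additive map of `F` is a combination of field automorphisms; `α` splits `Y` in pieces on which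
`T y` is a single term `c * σ`, using that the `a₀ / σ a₀` are not Galois conjugate.
-/

set_option autoImplicit false
set_option linter.unusedSectionVars false
set_option linter.style.haveILetI false

namespace Cfsg.Agent.Lib.SuzukiSolv.SZero

open Module Polynomial Cfsg.Agent.Lib.RankOne.FieldAut

variable {F Y : Type*} [Field F] [Fintype F] [CharP F 2] [AddCommGroup Y]

/-- The coefficient maps of an additive family of additive maps. -/
theorem exists_coeff [Fintype (F ≃+* F)] (T : Y →+ F →+ F) :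
    ∃ ψ : (F ≃+* F) → (Y →+ F), ∀ y x, T y x = ∑ σ, ψ σ y * σ x := by
  classical
  letI := ZMod.algebra F 2
  let b : Basis (F ≃+* F) F (F →ₗ[ZMod 2] F) :=
    Basis.mk (linearIndependent_linAut (F := F)) (span_linAut (F := F)).ge
  have hb : ∀ σ, b σ = linAut σ := fun σ => Basis.mk_apply _ _ _
  let C : (F ≃+* F) → (Y →+ F) := fun τ =>
    { toFun := fun y => b.repr ((T y).toZModLinearMap 2) τ
      map_zero' := by
        have : (T 0).toZModLinearMap 2 = 0 := by
          ext y
          simp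
        change b.repr ((T 0).toZModLinearMap 2) τ = 0
        rw [this]
        simp
      map_add' := by
        intro x x'
        have : (T (x + x')).toZModLinearMap 2 = (T x).toZModLinearMap 2 + (T x').toZModLinearMap 2 := by
          ext y
          simp
        change b.repr ((T (x + x')).toZModLinearMap 2) τ = _
        rw [this, map_add]
        rfl }
  refine ⟨C, fun y x => ?_⟩
  have h2 := b.sum_repr ((T y).toZModLinearMap 2)
  have h3 := congrArg (fun g : F →ₗ[ZMod 2] F => g x) h2
  simp only [LinearMap.sum_apply, LinearMap.smul_apply, hb] at h3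
  have h4 : ((T y).toZModLinearMap 2 : F →ₗ[ZMod 2] F) x = T y x := rfl
  rw [h4] at h3
  rw [← h3]
  rfl

/-- The hypotheses of the abstract theorem. -/
structure Hyp (T : Y →+ F →+ F) (S : Y → F) (B : Y →+ Y →+ F) (a₀ : F) (α : Y →+ Y) : Prop where
  inj : Function.Injective T
  hY : ∀ y : Y, y + y = 0
  B_self : ∀ y, B y y = 0
  B_symm : ∀ x y, B x y = B y x
  S_add : ∀ x y, S (x + y) = S x + S y + B x y
  R2 : ∀ h g, T h (S g) = B h g + T g (B h g)
  equi : ∀ y x, T (α y) (a₀ * x) = a₀ * T y x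
  fpf : ∀ (i : ℕ) (y : Y), a₀ ^ i ≠ 1 → α^[i] y = y → y = 0
  a₀ne : a₀ ≠ 0
  a₀ne1 : a₀ ≠ 1
  hconj : ∀ σ τ ρ : F ≃+* F, ρ (a₀ / σ a₀) = a₀ / τ a₀ → σ = τ
  hfix : ∀ σ : F ≃+* F, σ ≠ 1 → Nat.card {x : F // σ x = x} ≤ orderOf a₀

section

variable {T : Y →+ F →+ F} {S : Y → F} {B : Y →+ Y →+ F} {a₀ : F} {α : Y →+ Y}
  (D : Hyp T S B a₀ α) [Fintype (F ≃+* F)] {ψ : (F ≃+* F) → (Y →+ F)}
  (hψ : ∀ y x, T y x = ∑ σ, ψ σ y * σ x)

include D hψ

/-- The scalar by which `α` acts on the `σ`-coefficient. -/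
theorem coef_alpha (σ : F ≃+* F) (y : Y) : ψ σ (α y) = (a₀ / σ a₀) * ψ σ y := by
  classical
  have h := coeff_eq_zero (fun σ => ψ σ (α y) * σ a₀ - a₀ * ψ σ y) (fun x => by
    have h1 := D.equi y x
    rw [hψ, hψ] at h1
    simp only [map_mul] at h1
    simp only [sub_mul, Finset.sum_sub_distrib]
    rw [sub_eq_zero]
    calc ∑ σ : F ≃+* F, ψ σ (α y) * σ a₀ * σ x = ∑ σ : F ≃+* F, ψ σ (α y) * (σ a₀ * σ x) := by
          simp only [mul_assoc]
      _ = a₀ * ∑ σ : F ≃+* F, ψ σ y * σ x := h1
      _ = ∑ σ : F ≃+* F, a₀ * ψ σ y * σ x := by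
          rw [Finset.mul_sum]
          simp only [mul_assoc]) σ
  have h2 : σ a₀ ≠ 0 := by
    simpa using D.a₀ne
  field_simp
  linear_combination h

/-- `y` has a single coefficient. -/
def IsMon (ψ : (F ≃+* F) → (Y →+ F)) (σ : F ≃+* F) (y : Y) : Prop := ∀ τ, τ ≠ σ → ψ τ y = 0

omit D in
theorem T_mon {σ : F ≃+* F} {y : Y} (h : IsMon ψ σ y) (x : F) : T y x = ψ σ y * σ x := by
  classical
  rw [hψ, Finset.sum_eq_single σ]
  · intro τ _ hτ
    rw [h τ hτ, zero_mul]
  · intro hno
    exact absurd (Finset.mem_univ _) hno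

omit hψ in
theorem S_zero_zero : S 0 = 0 := by
  have h := D.S_add 0 0
  simp only [add_zero, map_zero] at h
  exact left_eq_add.mp h

omit D hψ in
theorem IsMon.add {σ : F ≃+* F} {y z : Y} (hy : IsMon ψ σ y) (hz : IsMon ψ σ z) :
    IsMon ψ σ (y + z) := by
  intro τ hτ
  rw [map_add, hy τ hτ, hz τ hτ, add_zero]

theorem eq_zero_of_coef {σ : F ≃+* F} {y : Y} (h : IsMon ψ σ y) (h0 : ψ σ y = 0) : y = 0 := by
  apply D.inj
  rw [map_zero]
  ext x
  rw [T_mon hψ h, h0, zero_mul]
  rfl

theorem S_mon {σ : F ≃+* F} {y : Y} (h : IsMon ψ σ y) : S y = 0 := by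
  have h1 := D.R2 y y
  rw [D.B_self, map_zero, add_zero, T_mon hψ h] at h1
  rcases mul_eq_zero.mp h1 with h2 | h2
  · rw [eq_zero_of_coef D hψ h h2]
    exact S_zero_zero D
  · simpa using h2

theorem alpha_mon {σ : F ≃+* F} {y : Y} (h : IsMon ψ σ y) : IsMon ψ σ (α y) := by
  intro τ hτ
  rw [coef_alpha D hψ, h τ hτ, mul_zero]

theorem alpha_inj : Function.Injective α := by
  rw [injective_iff_map_eq_zero]
  intro y hy
  apply D.inj
  rw [map_zero]
  ext x
  have h1 := D.equi y x
  rw [hy, map_zero, AddMonoidHom.zero_apply] at h1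
  have h3 := (mul_eq_zero.mp h1.symm).resolve_left D.a₀ne
  rw [h3]
  rfl

theorem iterate_mon {σ : F ≃+* F} {y : Y} (h : IsMon ψ σ y) (i : ℕ) : IsMon ψ σ (α^[i] y) := by
  induction i with
  | zero => exact h
  | succ i ih =>
    rw [Function.iterate_succ_apply']
    exact alpha_mon D hψ ih

theorem mon_one {y : Y} (h : IsMon ψ (1 : F ≃+* F) y) : y = 0 := by
  have h1 : ψ 1 (α y) = ψ 1 y := by
    rw [coef_alpha D hψ]
    have : (1 : F ≃+* F) a₀ = a₀ := rfl
    rw [this, div_self D.a₀ne, one_mul]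
  have h2 : α y = y := by
    apply D.inj
    ext x
    rw [T_mon hψ (alpha_mon D hψ h), T_mon hψ h, h1]
  apply D.fpf 1 y
  · rw [pow_one]
    exact D.a₀ne1
  · simpa using h2

theorem orderOf_pos' : 0 < orderOf a₀ := by
  have h0 := D.a₀ne
  apply orderOf_pos_iff.mpr
  rw [isOfFinOrder_iff_pow_eq_one]
  refine ⟨Fintype.card F - 1, ?_, FiniteField.pow_card_sub_one_eq_one a₀ h0⟩
  have : 1 < Fintype.card F := Fintype.one_lt_card
  omega

theorem iterate_inj {z : Y} (hz : z ≠ 0) {i j : ℕ} (hi : i < orderOf a₀) (hj : j < orderOf a₀)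
    (h : α^[i] z = α^[j] z) : i = j := by
  have hinj := alpha_inj D hψ
  wlog hij : i ≤ j generalizing i j
  · exact (this hj hi h.symm (by omega)).symm
  by_contra hne
  have hlt : i < j := by omega
  have h1 : α^[j - i] (α^[i] z) = α^[i] z := by
    rw [← Function.iterate_add_apply]
    have : j - i + i = j := by omega
    rw [this]
    exact h.symm
  have h2 : a₀ ^ (j - i) ≠ 1 := pow_ne_one_of_lt_orderOf (by omega) (by omega)
  have h3 := D.fpf _ _ h2 h1
  have h4 : α^[i] z = α^[i] 0 := by
    rw [h3, iterate_map_zero]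
  exact hz (hinj.iterate i h4)

theorem B_mon {σ τ : F ≃+* F} {y z : Y} (hy : IsMon ψ σ y) (hz : IsMon ψ τ z) : B z y = 0 := by
  classical
  by_contra hu
  set u := B z y with hudef
  have h2 : ∀ w : F, w + w = 0 := CharTwo.add_self_eq_zero
  have hy0 : y ≠ 0 := by
    rintro rfl
    exact hu (by rw [hudef, map_zero])
  have hz0 : z ≠ 0 := by
    rintro rfl
    apply hu
    rw [hudef, map_zero]
    rfl
  have hσ : σ ≠ 1 := by
    rintro rfl
    exact hy0 (mon_one D hψ hy)
  have hc : ψ σ y ≠ 0 := fun h => hy0 (eq_zero_of_coef D hψ hy h)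
  set c := ψ σ y with hcdef
  have hSy := S_mon D hψ hy
  -- relations
  have hfix1 : ∀ z', IsMon ψ τ z' → c * σ (B z' y) = B z' y := by
    intro z' _
    have h1 := D.R2 z' y
    rw [hSy, map_zero, T_mon hψ hy] at h1
    linear_combination -h1 - h2 (B z' y)
  have hfix2 : ∀ z', IsMon ψ τ z' → ψ τ z' * τ (B z' y) = B z' y := by
    intro z' hz'
    have h1 := D.R2 y z'
    rw [S_mon D hψ hz', map_zero, D.B_symm y z', T_mon hψ hz'] at h1
    linear_combination -h1 - h2 (B z' y)
  have hinjB : ∀ z₁ z₂, IsMon ψ τ z₁ → IsMon ψ τ z₂ → B z₁ y = B z₂ y → z₁ = z₂ := by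
    intro z₁ z₂ h₁ h₂ he
    have hsum : IsMon ψ τ (z₁ + z₂) := h₁.add h₂
    have hB0 : B (z₁ + z₂) y = 0 := by
      rw [map_add, AddMonoidHom.add_apply, he]
      exact h2 _
    have h3 := hfix2 (z + (z₁ + z₂)) (hz.add hsum)
    have h4 := hfix2 z hz
    have e : B (z + (z₁ + z₂)) y = u := by
      rw [map_add, AddMonoidHom.add_apply, hB0, add_zero]
    rw [e, map_add, add_mul] at h3
    rw [← hudef] at h4
    have h5 : ψ τ (z₁ + z₂) * τ u = 0 := by
      linear_combination h3 - h4
    have hτu : τ u ≠ 0 := by simpa using hu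
    have h6 := (mul_eq_zero.mp h5).resolve_right hτu
    have h7 := eq_zero_of_coef D hψ hsum h6
    have h8 := D.hY z₂
    have : z₁ = z₁ + (z₂ + z₂) := by rw [h8, add_zero]
    rw [this, ← add_assoc, h7, zero_add]
  -- the fixed points
  have hfixσ : ∀ z', IsMon ψ τ z' → σ (B z' y / u) = B z' y / u := by
    intro z' hz'
    have h3 := hfix1 z' hz'
    have h4 := hfix1 z hz
    rw [← hudef] at h4
    rw [map_div₀]
    have hσu : σ u ≠ 0 := by simpa using hu
    rw [div_eq_div_iff hσu hu]
    calc σ (B z' y) * u = σ (B z' y) * (c * σ u) := by rw [h4]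
      _ = (c * σ (B z' y)) * σ u := by ring
      _ = B z' y * σ u := by rw [h3]
  have hM := orderOf_pos' D hψ
  let g : Option (Fin (orderOf a₀)) → Y := fun o =>
    match o with
    | none => 0
    | some i => α^[i.1] z
  have hgm : ∀ o, IsMon ψ τ (g o) := by
    intro o
    cases o with
    | none =>
      intro τ' _
      exact map_zero _
    | some i => exact iterate_mon D hψ hz i.1
  have hginj : Function.Injective g := by
    have hne : ∀ i : ℕ, α^[i] z ≠ 0 := by
      intro i h
      have h1 : α^[i] z = α^[i] 0 := by rw [h, iterate_map_zero]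
      exact hz0 ((alpha_inj D hψ).iterate i h1)
    intro a b hab
    cases a with
    | none =>
      cases b with
      | none => rfl
      | some j => exact absurd hab.symm (hne j.1)
    | some i =>
      cases b with
      | none => exact absurd hab (hne i.1)
      | some j =>
        have := iterate_inj D hψ hz0 i.2 j.2 hab
        rw [Fin.ext this]
  let Φ : Option (Fin (orderOf a₀)) → {x : F // σ x = x} := fun o =>
    ⟨B (g o) y / u, hfixσ _ (hgm o)⟩
  have hΦ : Function.Injective Φ := by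
    intro a b hab
    have h3 : B (g a) y / u = B (g b) y / u := congrArg Subtype.val hab
    have h4 : B (g a) y = B (g b) y := by
      field_simp at h3
      exact h3
    exact hginj (hinjB _ _ (hgm a) (hgm b) h4)
  have hcard := Nat.card_le_card_of_injective Φ hΦ
  have h5 := D.hfix σ hσ
  have h6 : Nat.card (Option (Fin (orderOf a₀))) = orderOf a₀ + 1 := by
    rw [Nat.card_eq_fintype_card, Fintype.card_option, Fintype.card_fin]
  omega

/-- Polynomials in `α` act on the coefficients through `a₀ / σ a₀`. -/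
theorem coef_aeval [Algebra (ZMod 2) F] [Module (ZMod 2) Y] (σ : F ≃+* F)
    (P : (ZMod 2)[X]) (y : Y) :
    ψ σ (aeval (α.toZModLinearMap 2 : Module.End (ZMod 2) Y) P y) =
      aeval (a₀ / σ a₀) P * ψ σ y := by
  have hsmul : ∀ (a : ZMod 2) (z : Y), ψ σ (a • z) = algebraMap (ZMod 2) F a * ψ σ z := by
    intro a z
    have h1 : ψ σ (a • z) = a • ψ σ z := ((ψ σ).toZModLinearMap 2).map_smul a z
    rw [h1, Algebra.smul_def]
  have hpow : ∀ (n : ℕ) (z : Y), ψ σ (((α.toZModLinearMap 2 : Module.End (ZMod 2) Y) ^ n) z) =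
      (a₀ / σ a₀) ^ n * ψ σ z := by
    intro n
    induction n with
    | zero =>
      intro z
      simp
    | succ n ih =>
      intro z
      rw [pow_succ, Module.End.mul_apply, ih]
      have h1 : ((α.toZModLinearMap 2 : Module.End (ZMod 2) Y)) z = α z := rfl
      rw [h1, coef_alpha D hψ]
      ring
  induction P using Polynomial.induction_on' with
  | add p q hp hq =>
    rw [map_add, map_add, LinearMap.add_apply, map_add, hp, hq, add_mul]
  | monomial n a =>
    rw [aeval_monomial, aeval_monomial, Module.End.mul_apply]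
    have h1 : (algebraMap (ZMod 2) (Module.End (ZMod 2) Y) a) =
        a • (1 : Module.End (ZMod 2) Y) := by
      rw [Algebra.algebraMap_eq_smul_one]
    rw [h1, LinearMap.smul_apply, Module.End.one_apply, hsmul, hpow]
    ring

/-- The main theorem: `S` vanishes. -/
theorem S_eq_zero (y : Y) : S y = 0 := by
  classical
  letI : Algebra (ZMod 2) F := ZMod.algebra F 2
  letI : Module (ZMod 2) Y := AddCommGroup.zmodModule (n := 2) (fun z => by
    rw [two_nsmul]
    exact D.hY z)
  have : Fact (Nat.Prime 2) := ⟨Nat.prime_two⟩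
  let lam : (F ≃+* F) → F := fun σ => a₀ / σ a₀
  let mp : (F ≃+* F) → (ZMod 2)[X] := fun σ => minpoly (ZMod 2) (lam σ)
  have hint : ∀ x : F, IsIntegral (ZMod 2) x := fun x => Algebra.IsIntegral.isIntegral x
  have hcop : Pairwise (Function.onFun IsCoprime mp) := by
    intro σ τ hne
    have hirr := minpoly.irreducible (hint (lam σ))
    show IsCoprime (mp σ) (mp τ)
    rw [hirr.coprime_iff_not_dvd]
    intro hdvd
    have hirr' := minpoly.irreducible (hint (lam τ))
    have hassoc := (hirr.dvd_irreducible_iff_associated hirr').mp hdvd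
    have heq : mp σ = mp τ :=
      eq_of_monic_of_associated (minpoly.monic (hint _)) (minpoly.monic (hint _)) hassoc
    have hconj : IsConjRoot (ZMod 2) (lam σ) (lam τ) := heq
    obtain ⟨ρ, hρ⟩ := isConjRoot_iff_exists_algEquiv.mp hconj
    have h1 := D.hconj τ σ ρ.toRingEquiv hρ
    exact hne h1.symm
  haveI : Nonempty (F ≃+* F) := ⟨1⟩
  obtain ⟨μ, hμ⟩ := (exists_sum_eq_one_iff_pairwise_coprime' (s := mp)).mpr hcop
  let ys : (F ≃+* F) → Y := fun σ =>
    aeval (α.toZModLinearMap 2 : Module.End (ZMod 2) Y) (μ σ * ∏ j ∈ {σ}ᶜ, mp j) y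
  have hsum : ∑ σ, ys σ = y := by
    have h1 := congrArg (fun P => aeval (α.toZModLinearMap 2 : Module.End (ZMod 2) Y) P y) hμ
    simp only [map_sum, map_one, LinearMap.sum_apply, Module.End.one_apply] at h1
    exact h1
  have hmon : ∀ σ, IsMon ψ σ (ys σ) := by
    intro σ τ hτ
    show ψ τ (aeval (α.toZModLinearMap 2 : Module.End (ZMod 2) Y) (μ σ * ∏ j ∈ {σ}ᶜ, mp j) y) = 0
    rw [coef_aeval D hψ τ, map_mul, map_prod]
    have h0 : aeval (a₀ / τ a₀) (mp τ) = 0 := minpoly.aeval (ZMod 2) (lam τ)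
    rw [Finset.prod_eq_zero (i := τ) (by simp [hτ]) h0]
    simp
  have hS : ∀ s : Finset (F ≃+* F), S (∑ σ ∈ s, ys σ) = 0 := by
    intro s
    induction s using Finset.induction_on with
    | empty =>
      rw [Finset.sum_empty]
      exact S_zero_zero D
    | insert a s ha ih =>
      rw [Finset.sum_insert ha, D.S_add, S_mon D hψ (hmon a), ih, map_sum]
      simp only [zero_add]
      apply Finset.sum_eq_zero
      intro σ _
      rw [B_mon D hψ (hmon σ) (hmon a)]
  rw [← hsum]
  exact hS Finset.univ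

end

/-- The main theorem. -/
theorem main {T : Y →+ F →+ F} {S : Y → F} {B : Y →+ Y →+ F} {a₀ : F} {α : Y →+ Y}
    (D : Hyp T S B a₀ α) (y : Y) : S y = 0 := by
  classical
  haveI := finite_aut (F := F)
  letI := Fintype.ofFinite (F ≃+* F)
  obtain ⟨ψ, hψ⟩ := exists_coeff T
  exact S_eq_zero D hψ y

end Cfsg.Agent.Lib.SuzukiSolv.SZero
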