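import Mathlib
import Cfsg.Agent.Lib.SuzukiSolv.Central
import Cfsg.Agent.Lib.SuzukiSolv.SZero

set_option autoImplicit false
set_option linter.style.haveILetI false
set_option linter.unusedSectionVars false

/-! Higman's theorem on Suzuki 2-groups, for a group of automorphisms transitive on the involutions
and acting semilinearly: squares and commutators are central. The argument is that of
`Lib.SuzukiTwo.Higman`, with the abstract core replaced by `Lib.SuzukiSolv.SZero`. -/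

namespace Cfsg.Agent.Lib.SuzukiSolv.Higman

open Cfsg.Agent.Lib.SuzukiTwo.Basic Cfsg.Agent.Lib.SuzukiSolv.Central

variable {P : Type*} [Group P] {K : Subgroup (MulAut P)}

/-- restriction of the context to an invariant subgroup containing the involutions -/
theorem restrict (h : TCtx K) (C : Subgroup P) (hinv : ∀ k ∈ K, ∀ a ∈ C, k a ∈ C)
    (hinvol : ∀ x : P, x * x = 1 → x ∈ C) : ∃ K' : Subgroup (MulAut C), TCtx K' := by
  classical
  haveI := h.finite
  let res : K →* MulAut C :=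
    { toFun := fun k =>
        { toFun := fun a => ⟨(k : MulAut P) a, hinv _ k.2 _ a.2⟩
          invFun := fun a => ⟨(k : MulAut P)⁻¹ a, hinv _ (K.inv_mem k.2) _ a.2⟩
          left_inv := by
            intro a
            apply Subtype.ext
            simp
          right_inv := by
            intro a
            apply Subtype.ext
            simp
          map_mul' := by
            intro a b
            apply Subtype.ext
            simp }
      map_one' := by
        ext a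
        rfl
      map_mul' := by
        intro k l
        ext a
        rfl }
  have hres : ∀ (k : K) (a : C), ((res k a : C) : P) = (k : MulAut P) a := fun _ _ => rfl
  refine ⟨res.range, ⟨inferInstance, h.pgroup.to_subgroup C, ?_, ?_, ?_⟩⟩
  · obtain ⟨x, y, hxy, hx, hx2, hy, hy2⟩ := h.two
    refine ⟨⟨x, hinvol x hx2⟩, ⟨y, hinvol y hy2⟩, ?_, ?_, ?_, ?_, ?_⟩
    · exact fun e => hxy (congrArg Subtype.val e)
    · exact fun e => hx (congrArg Subtype.val e)
    · exact Subtype.ext hx2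
    · exact fun e => hy (congrArg Subtype.val e)
    · exact Subtype.ext hy2
  · intro x y hx hx2 hy hy2
    have hx' : (x : P) ≠ 1 := fun e => hx (Subtype.ext e)
    have hy' : (y : P) ≠ 1 := fun e => hy (Subtype.ext e)
    have hx2' : (x : P) * x = 1 := congrArg Subtype.val hx2
    have hy2' : (y : P) * y = 1 := congrArg Subtype.val hy2
    obtain ⟨k, hk, hky⟩ := h.exists_k hx' hx2' hy' hy2'
    refine ⟨res ⟨k, hk⟩, ⟨⟨k, hk⟩, rfl⟩, Subtype.ext hky⟩
  · intro c' h1 h2 h3 h4 h5 u v hu hv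
    -- extension of `c'` to `P`
    let c : P → P → P := fun a b =>
      if ha : a ∈ C then if hb : b ∈ C then ((c' ⟨a, ha⟩ ⟨b, hb⟩ : C) : P) else 1 else 1
    have hc : ∀ (a b : P) (ha : a ∈ C) (hb : b ∈ C), c a b = ((c' ⟨a, ha⟩ ⟨b, hb⟩ : C) : P) := by
      intro a b ha hb
      simp only [c, dif_pos ha, dif_pos hb]
    have hsq : ∀ {a : C}, (a : P) * a = 1 → a * a = 1 := fun e => Subtype.ext e
    have key := h.hua c
      (by
        intro a b ha hb
        rw [hc a b (hinvol a ha) (hinvol b hb)]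
        exact congrArg Subtype.val (h1 ⟨a, hinvol a ha⟩ ⟨b, hinvol b hb⟩ (Subtype.ext ha) (Subtype.ext hb)))
      (by
        intro a a' b ha ha' hb
        have haa := h.invol_mul ha ha'
        rw [hc _ b (hinvol _ haa) (hinvol b hb), hc a b (hinvol a ha) (hinvol b hb),
          hc a' b (hinvol a' ha') (hinvol b hb)]
        exact congrArg Subtype.val (h2 ⟨a, hinvol a ha⟩ ⟨a', hinvol a' ha'⟩ ⟨b, hinvol b hb⟩
          (Subtype.ext ha) (Subtype.ext ha') (Subtype.ext hb)))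
      (by
        intro a b b' ha hb hb'
        have hbb := h.invol_mul hb hb'
        rw [hc a _ (hinvol a ha) (hinvol _ hbb), hc a b (hinvol a ha) (hinvol b hb),
          hc a b' (hinvol a ha) (hinvol b' hb')]
        exact congrArg Subtype.val (h3 ⟨a, hinvol a ha⟩ ⟨b, hinvol b hb⟩ ⟨b', hinvol b' hb'⟩
          (Subtype.ext ha) (Subtype.ext hb) (Subtype.ext hb')))
      (by
        intro a ha
        rw [hc a a (hinvol a ha) (hinvol a ha)]
        exact congrArg Subtype.val (h4 ⟨a, hinvol a ha⟩ (Subtype.ext ha)))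
      (by
        intro k hk a b ha hb
        have hka : k a * k a = 1 := by rw [← map_mul, ha, map_one]
        have hkb : k b * k b = 1 := by rw [← map_mul, hb, map_one]
        rw [hc _ _ (hinvol _ hka) (hinvol _ hkb), hc a b (hinvol a ha) (hinvol b hb)]
        exact congrArg Subtype.val (h5 (res ⟨k, hk⟩) ⟨⟨k, hk⟩, rfl⟩ ⟨a, hinvol a ha⟩ ⟨b, hinvol b hb⟩
          (Subtype.ext ha) (Subtype.ext hb)))
    have hu' : (u : P) * u = 1 := congrArg Subtype.val hu
    have hv' : (v : P) * v = 1 := congrArg Subtype.val hv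
    have e := key u v hu' hv'
    rw [hc u v u.2 v.2] at e
    exact Subtype.ext e

/-- the commutator -/
def cmt (a b : P) : P := a * b * a⁻¹ * b⁻¹

/-- the set-up for the main argument -/
structure Sec (K : Subgroup (MulAut P)) (C : Subgroup P) : Prop extends Good K C where
  hsq : ∀ g : P, g * g ∈ C
  hcc : ∀ g : P, (∀ t ∈ C, t * t ∈ Subgroup.center P → g * t = t * g) → g ∈ C
  ht : ∃ t ∈ C, t * t ≠ 1

/-- a normal subgroup outside the centre of a finite 2-group has an element outside the centre with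
central commutators -/
theorem exists_second_center [Finite P] (hp : IsPGroup 2 P) (N : Subgroup P) (hN : N.Normal)
    (hne : ¬ N ≤ Subgroup.center P) :
    ∃ t ∈ N, t ∉ Subgroup.center P ∧ ∀ x : P, cmt x t ∈ Subgroup.center P := by
  classical
  haveI : Fact (Nat.Prime 2) := ⟨Nat.prime_two⟩
  let π := QuotientGroup.mk' (Subgroup.center P)
  let N' : Subgroup (P ⧸ Subgroup.center P) := N.map π
  haveI hN' : N'.Normal := hN.map π (QuotientGroup.mk'_surjective _)
  have hQ : IsPGroup 2 (P ⧸ Subgroup.center P) := hp.to_quotient _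
  have hpN : IsPGroup 2 N' := hQ.to_subgroup N'
  have hnt : Nontrivial N' := by
    obtain ⟨t, ht, hnz⟩ := SetLike.not_le_iff_exists.mp hne
    refine ⟨⟨⟨π t, ⟨t, ht, rfl⟩⟩, 1, ?_⟩⟩
    intro e
    apply hnz
    have : π t = 1 := congrArg Subtype.val e
    exact (QuotientGroup.eq_one_iff t).mp this
  obtain ⟨m, hm⟩ := IsPGroup.iff_card.mp hpN
  have hdvd : 2 ∣ Nat.card N' := by
    rw [hm]
    have hm0 : m ≠ 0 := by
      rintro rfl
      rw [pow_zero] at hm
      exact absurd (Nat.card_eq_one_iff_unique.mp hm).1 (not_subsingleton _)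
    exact dvd_pow_self 2 hm0
  have hpc : IsPGroup 2 (ConjAct (P ⧸ Subgroup.center P)) := hQ.of_equiv ConjAct.toConjAct
  have hfix : (1 : N') ∈ MulAction.fixedPoints (ConjAct (P ⧸ Subgroup.center P)) N' := by
    intro g
    exact smul_one g
  obtain ⟨b, hb, hb1⟩ := hpc.exists_fixed_point_of_prime_dvd_card_of_fixed_point N' hdvd hfix
  obtain ⟨⟨_, t, ht, rfl⟩, htb⟩ : ∃ b' : N', b' = b := ⟨b, rfl⟩
  subst htb
  refine ⟨t, ht, ?_, ?_⟩
  · intro hz
    apply hb1
    apply Subtype.ext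
    show (1 : P ⧸ Subgroup.center P) = π t
    exact ((QuotientGroup.eq_one_iff t).mpr hz).symm
  · intro x
    have h1 := hb (ConjAct.toConjAct (π x))
    have h2 : π x * π t * (π x)⁻¹ = π t := by
      have := congrArg Subtype.val h1
      rwa [ConjAct.Subgroup.val_conj_smul, ConjAct.smul_def, ConjAct.ofConjAct_toConjAct] at this
    rw [← QuotientGroup.eq_one_iff]
    show π (cmt x t) = 1
    unfold cmt
    rw [map_mul, map_mul, map_mul, map_inv, map_inv, h2, mul_inv_cancel]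

section

variable (h : TCtx K) (hnc : ∃ x y : P, x * y ≠ y * x)

include h hnc

theorem center_exp {z : P} (hz : z ∈ Subgroup.center P) : z * z = 1 := center_sq h hnc hz

omit h hnc in
theorem center_comm {z : P} (hz : z ∈ Subgroup.center P) (g : P) : g * z = z * g :=
  (Subgroup.mem_center_iff.mp hz) g

/-- construction of the set-up -/
theorem exists_sec (hg : ∃ g : P, g * g ∉ Subgroup.center P) : ∃ C : Subgroup P, Sec K C := by
  classical
  haveI := h.finite
  have hZ : ∀ {z : P}, z ∈ Subgroup.center P → z * z = 1 := fun hz => center_exp h hnc hz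
  have hc : ∀ {z : P}, z ∈ Subgroup.center P → ∀ g : P, g * z = z * g :=
    fun hz g => center_comm hz g
  have hconj_center : ∀ {z : P}, z ∈ Subgroup.center P → ∀ y : P, y * z * y⁻¹ ∈ Subgroup.center P := by
    intro z hz y
    rw [hc hz y, mul_inv_cancel_right]
    exact hz
  let Fr : Subgroup P := Subgroup.closure {x | ∃ g : P, x = g * g}
  have hFr_normal : Fr.Normal := by
    constructor
    intro x hx y
    induction hx using Subgroup.closure_induction with
    | mem x hx =>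
      obtain ⟨g, rfl⟩ := hx
      apply Subgroup.subset_closure
      exact ⟨y * g * y⁻¹, by group⟩
    | one => simp [Fr.one_mem]
    | mul a b _ _ ha hb =>
      have e : y * (a * b) * y⁻¹ = (y * a * y⁻¹) * (y * b * y⁻¹) := by group
      rw [e]
      exact Fr.mul_mem ha hb
    | inv a _ ha =>
      have e : y * a⁻¹ * y⁻¹ = (y * a * y⁻¹)⁻¹ := by group
      rw [e]
      exact Fr.inv_mem ha
  have hFr_K : ∀ k : MulAut P, ∀ x ∈ Fr, k x ∈ Fr := by
    intro k x hx
    induction hx using Subgroup.closure_induction with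
    | mem x hx =>
      obtain ⟨g, rfl⟩ := hx
      apply Subgroup.subset_closure
      exact ⟨k g, map_mul k g g⟩
    | one => simp [Fr.one_mem]
    | mul a b _ _ ha hb =>
      rw [map_mul]
      exact Fr.mul_mem ha hb
    | inv a _ ha =>
      rw [map_inv]
      exact Fr.inv_mem ha
  have hne : ¬ Fr ≤ Subgroup.center P := by
    obtain ⟨g, hg⟩ := hg
    intro hle
    exact hg (hle (Subgroup.subset_closure ⟨g, rfl⟩))
  obtain ⟨t₀, ht₀, ht₀z, ht₀c⟩ := exists_second_center h.pgroup Fr hFr_normal hne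
  let T : Set P := {t | t ∈ Fr ∧ ∀ x : P, cmt x t ∈ Subgroup.center P}
  have ht₀T : t₀ ∈ T := ⟨ht₀, ht₀c⟩
  have hT_conj : ∀ t ∈ T, ∀ y : P, y * t * y⁻¹ ∈ T := by
    rintro t ⟨h1, h2⟩ y
    refine ⟨hFr_normal.conj_mem t h1 y, ?_⟩
    intro x
    have e : cmt x (y * t * y⁻¹) = y * cmt (y⁻¹ * x * y) t * y⁻¹ := by
      unfold cmt; group
    rw [e]
    exact hconj_center (h2 _) y
  have hT_K : ∀ t ∈ T, ∀ k : MulAut P, k t ∈ T := by
    rintro t ⟨h1, h2⟩ k
    refine ⟨hFr_K k t h1, ?_⟩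
    intro x
    have e : cmt x (k t) = k (cmt (k⁻¹ x) t) := by
      unfold cmt
      simp
    rw [e]
    exact Ctx.aut_center (h2 _)
  have hT_sq : ∀ t ∈ T, t * t ∈ Subgroup.center P := by
    rintro t ⟨-, h2⟩
    rw [Subgroup.mem_center_iff]
    intro x
    have hz := h2 x
    have e1 : x * t * x⁻¹ = cmt x t * t := by
      unfold cmt; group
    have e2 : x * (t * t) * x⁻¹ = (x * t * x⁻¹) * (x * t * x⁻¹) := by group
    have e3 : x * (t * t) * x⁻¹ = t * t := by
      rw [e2, e1]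
      calc cmt x t * t * (cmt x t * t) = cmt x t * (t * cmt x t) * t := by group
        _ = cmt x t * (cmt x t * t) * t := by rw [hc hz t]
        _ = (cmt x t * cmt x t) * (t * t) := by group
        _ = t * t := by rw [hZ hz, one_mul]
    rw [mul_inv_eq_iff_eq_mul] at e3
    exact e3
  let C : Subgroup P := Subgroup.centralizer T
  have hC : ∀ {g : P}, g ∈ C ↔ ∀ t ∈ T, t * g = g * t := by
    intro g
    exact Subgroup.mem_centralizer_iff
  have hFrC : Fr ≤ C := by
    rw [Subgroup.closure_le]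
    rintro _ ⟨g, rfl⟩
    apply hC.mpr
    rintro t ⟨-, h2⟩
    have hz := h2 g
    have e1 : g * t * g⁻¹ = cmt g t * t := by
      unfold cmt; group
    have e2 : (g * g) * t * (g * g)⁻¹ = t := by
      have : (g * g) * t * (g * g)⁻¹ = g * (g * t * g⁻¹) * g⁻¹ := by group
      rw [this, e1]
      have : g * (cmt g t * t) * g⁻¹ = g * cmt g t * g⁻¹ * (g * t * g⁻¹) := by group
      rw [this, e1]
      have e3 : g * cmt g t * g⁻¹ = cmt g t := by
        rw [hc hz g, mul_inv_cancel_right]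
      rw [e3, ← mul_assoc, hZ hz, one_mul]
    rw [mul_inv_eq_iff_eq_mul] at e2
    exact e2.symm
  have hTC : ∀ t ∈ T, t ∈ C := fun t ht => hFrC ht.1
  have hcomm : ∀ a ∈ C, ∀ b ∈ C, a * b = b * a := by
    by_contra hno
    push Not at hno
    obtain ⟨a, ha, b, hb, hab⟩ := hno
    have hCinv : ∀ k ∈ K, ∀ a ∈ C, k a ∈ C := by
      intro k _ a ha
      apply hC.mpr
      intro t ht
      have := (hC.mp ha) _ (hT_K t ht k⁻¹)
      have e := congrArg k this
      simpa using e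
    have hCinvol : ∀ x : P, x * x = 1 → x ∈ C := by
      intro x hx
      have hxz := h.invol_center hx
      apply hC.mpr
      intro t _
      exact (hc hxz t)
    obtain ⟨K', hK'⟩ := restrict h C hCinv hCinvol
    have hnc' : ∃ x y : C, x * y ≠ y * x := by
      refine ⟨⟨a, ha⟩, ⟨b, hb⟩, ?_⟩
      intro e
      exact hab (congrArg Subtype.val e)
    have hzC : (⟨t₀, hTC t₀ ht₀T⟩ : C) ∈ Subgroup.center C := by
      rw [Subgroup.mem_center_iff]
      rintro ⟨g, hg⟩
      apply Subtype.ext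
      exact ((hC.mp hg) t₀ ht₀T).symm
    have := center_sq hK' hnc' hzC
    have e : t₀ * t₀ = 1 := congrArg Subtype.val this
    exact ht₀z (h.invol_center e)
  refine ⟨C, ⟨⟨hcomm, ?_, ?_, ?_⟩, ?_, ?_, ?_⟩⟩
  · intro a ha x
    apply hC.mpr
    intro t ht
    have := (hC.mp ha) _ (hT_conj t ht x⁻¹)
    calc t * (x * a * x⁻¹) = x * ((x⁻¹ * t * x⁻¹⁻¹) * a) * x⁻¹ := by group
      _ = x * (a * (x⁻¹ * t * x⁻¹⁻¹)) * x⁻¹ := by rw [this]
      _ = x * a * x⁻¹ * t := by group
  · intro k _ a ha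
    apply hC.mpr
    intro t ht
    have := (hC.mp ha) _ (hT_K t ht k⁻¹)
    have e := congrArg k this
    simpa using e
  · intro x hx
    apply hC.mpr
    intro t _
    exact hc hx t
  · intro g
    exact hFrC (Subgroup.subset_closure ⟨g, rfl⟩)
  · intro g hg
    apply hC.mpr
    intro t ht
    exact (hg t (hTC t ht) (hT_sq t ht)).symm
  · refine ⟨t₀, hTC t₀ ht₀T, ?_⟩
    intro e
    exact ht₀z (h.invol_center e)

end

section Main

variable (h : TCtx K) (hnc : ∃ x y : P, x * y ≠ y * x) {C : Subgroup P} (hC : Sec K C)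
  (hfp : ∃ k ∈ K, ∀ x : P, x ≠ 1 → k x ≠ x)

include h hC

omit hC in
theorem invol_comm {z : P} (hz : z * z = 1) (g : P) : g * z = z * g :=
  center_comm (h.invol_center hz) g

theorem cmt_mem_of_mem {g t : P} (ht : t ∈ C) : cmt g t ∈ C := by
  unfold cmt
  exact C.mul_mem (hC.normal t ht g) (C.inv_mem ht)

/-- a square of an element of `C` which is an involution makes the commutator an involution -/
theorem cmt_sq {g t : P} (ht : t ∈ C) (hsq : (t * t) * (t * t) = 1) :
    cmt g t * cmt g t = 1 := by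
  have e : cmt g t * cmt g t = g * (t * t) * g⁻¹ * (t * t)⁻¹ := by
    have hc := hC.comm _ (hC.normal t ht g) _ (C.inv_mem ht)
    unfold cmt
    calc g * t * g⁻¹ * t⁻¹ * (g * t * g⁻¹ * t⁻¹)
        = (g * t * g⁻¹) * (t⁻¹ * (g * t * g⁻¹)) * t⁻¹ := by group
      _ = (g * t * g⁻¹) * ((g * t * g⁻¹) * t⁻¹) * t⁻¹ := by rw [hc]
      _ = _ := by group
  rw [e, invol_comm h hsq g, mul_inv_cancel_right, mul_inv_cancel]

theorem exists_root {w : P} (hw : w * w = 1) : ∃ t ∈ C, t * t = w := by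
  by_cases hw1 : w = 1
  · exact ⟨1, C.one_mem, by rw [hw1, one_mul]⟩
  obtain ⟨t₀, ht₀, ht₁⟩ := hC.ht
  obtain ⟨n, h1, h2⟩ := exists_pow_four h.pgroup ht₁
  obtain ⟨k, hk, hkw⟩ := h.exists_k h1 h2 hw1 hw
  refine ⟨k (t₀ ^ n), hC.inv k hk _ (C.pow_mem ht₀ n), ?_⟩
  rw [← map_mul, hkw]

open scoped Classical in
/-- a chosen square root -/
noncomputable def tau (h : TCtx K) (hC : Sec K C) (w : P) : P :=
  if hw : w * w = 1 then Classical.choose (exists_root h hC hw) else 1

theorem tau_mem {w : P} (hw : w * w = 1) : tau h hC w ∈ C := by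
  unfold tau
  rw [dif_pos hw]
  exact (Classical.choose_spec (exists_root h hC hw)).1

theorem tau_sq {w : P} (hw : w * w = 1) : tau h hC w * tau h hC w = w := by
  unfold tau
  rw [dif_pos hw]
  exact (Classical.choose_spec (exists_root h hC hw)).2

/-- the map `F` -/
noncomputable def Fm (h : TCtx K) (hC : Sec K C) (g w : P) : P := cmt g (tau h hC w)

theorem Fm_eq {g t w : P} (ht : t ∈ C) (e : t * t = w) (hw : w * w = 1) :
    Fm h hC g w = cmt g t := by
  have h0 := tau_mem h hC hw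
  have h1 := tau_sq h hC hw
  set τ := tau h hC w with hτ
  have hcomm := hC.comm _ ht _ h0
  -- `z = t⁻¹ τ` is an involution
  have hz : (t⁻¹ * τ) * (t⁻¹ * τ) = 1 := by
    have hcomm2 := hC.comm _ (C.inv_mem ht) _ h0
    calc (t⁻¹ * τ) * (t⁻¹ * τ) = t⁻¹ * (τ * t⁻¹) * τ := by group
      _ = t⁻¹ * (t⁻¹ * τ) * τ := by rw [hcomm2]
      _ = (t * t)⁻¹ * (τ * τ) := by group
      _ = 1 := by rw [h1, e, inv_mul_cancel]
  have e1 : τ = t * (t⁻¹ * τ) := by group
  unfold Fm cmt
  rw [← hτ]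
  rw [e1]
  set z := t⁻¹ * τ with hzdef
  have hzc := invol_comm h hz
  calc g * (t * z) * g⁻¹ * (t * z)⁻¹ = g * t * (z * g⁻¹) * z⁻¹ * t⁻¹ := by group
    _ = g * t * (g⁻¹ * z) * z⁻¹ * t⁻¹ := by rw [hzc g⁻¹]
    _ = g * t * g⁻¹ * t⁻¹ := by group

theorem Fm_sq (g : P) {w : P} (hw : w * w = 1) : Fm h hC g w * Fm h hC g w = 1 := by
  have h0 := tau_mem h hC hw
  have h1 := tau_sq h hC hw
  apply cmt_sq h hC h0
  rw [h1, hw]

theorem Fm_mem_center (g : P) {w : P} (hw : w * w = 1) : Fm h hC g w ∈ Subgroup.center P :=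
  h.invol_center (Fm_sq h hC g hw)

theorem Fm_mul_r (g : P) {w w' : P} (hw : w * w = 1) (hw' : w' * w' = 1) :
    Fm h hC g (w * w') = Fm h hC g w * Fm h hC g w' := by
  have h0 := tau_mem h hC hw
  have h1 := tau_sq h hC hw
  have h0' := tau_mem h hC hw'
  have h1' := tau_sq h hC hw'
  set t := tau h hC w
  set t' := tau h hC w'
  have hcomm := hC.comm _ h0 _ h0'
  have hww' : (w * w') * (w * w') = 1 := (TCtx.mem_Om h).mp (h.Om.mul_mem hw hw')
  have e : (t * t') * (t * t') = w * w' := by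
    calc (t * t') * (t * t') = t * (t' * t) * t' := by group
      _ = t * (t * t') * t' := by rw [hcomm]
      _ = (t * t) * (t' * t') := by group
      _ = w * w' := by rw [h1, h1']
  rw [Fm_eq h hC (C.mul_mem h0 h0') e hww']
  change cmt g (t * t') = cmt g t * cmt g t'
  unfold cmt
  have e2 : g * (t * t') * g⁻¹ * (t * t')⁻¹ =
      (g * t * g⁻¹) * (g * t' * g⁻¹) * (t⁻¹ * t'⁻¹) := by
    have := hC.comm _ (C.inv_mem h0) _ (C.inv_mem h0')
    calc g * (t * t') * g⁻¹ * (t * t')⁻¹ = (g * t * g⁻¹) * (g * t' * g⁻¹) * (t'⁻¹ * t⁻¹) := by group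
      _ = _ := by rw [← this]
  rw [e2]
  have hc1 := hC.comm _ (hC.normal t' h0' g) _ (C.inv_mem h0)
  calc g * t * g⁻¹ * (g * t' * g⁻¹) * (t⁻¹ * t'⁻¹)
      = g * t * g⁻¹ * ((g * t' * g⁻¹) * t⁻¹) * t'⁻¹ := by group
    _ = g * t * g⁻¹ * (t⁻¹ * (g * t' * g⁻¹)) * t'⁻¹ := by rw [hc1]
    _ = _ := by group

theorem Fm_mul_l (g g' : P) {w : P} (hw : w * w = 1) :
    Fm h hC (g * g') w = Fm h hC g w * Fm h hC g' w := by
  have hz : Fm h hC g' w ∈ Subgroup.center P := Fm_mem_center h hC g' hw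
  unfold Fm at hz ⊢
  have hc := center_comm hz
  set t := tau h hC w
  unfold cmt at hz hc ⊢
  set c := g' * t * g'⁻¹ * t⁻¹ with hcdef
  have e1 : g' * t * g'⁻¹ = c * t := by
    rw [hcdef]; group
  calc g * g' * t * (g * g')⁻¹ * t⁻¹ = g * (g' * t * g'⁻¹) * g⁻¹ * t⁻¹ := by group
    _ = g * (c * t) * g⁻¹ * t⁻¹ := by rw [e1]
    _ = (g * c) * t * g⁻¹ * t⁻¹ := by group
    _ = (c * g) * t * g⁻¹ * t⁻¹ := by rw [hc g]
    _ = c * (g * t * g⁻¹ * t⁻¹) := by group
    _ = (g * t * g⁻¹ * t⁻¹) * c := (hc _).symm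

theorem Fm_equi {k : MulAut P} (hk : k ∈ K) (g : P) {w : P} (hw : w * w = 1) :
    k (Fm h hC g w) = Fm h hC (k g) (k w) := by
  have h0 := tau_mem h hC hw
  have h1 := tau_sq h hC hw
  have hw' : k w * k w = 1 := by rw [← map_mul, hw, map_one]
  rw [Fm_eq h hC (t := k (tau h hC w)) (hC.inv k hk _ h0) (by rw [← map_mul, h1]) hw']
  unfold Fm cmt
  simp only [map_mul, map_inv]

theorem Fm_of_mem {g : P} (hg : g ∈ C) (w : P) (hw : w * w = 1) : Fm h hC g w = 1 := by
  have h0 := tau_mem h hC hw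
  unfold Fm cmt
  rw [hC.comm _ hg _ h0]
  group

theorem Fm_one (g : P) : Fm h hC g 1 = 1 := by
  rw [Fm_eq h hC (t := 1) C.one_mem (by simp) (by simp)]
  unfold cmt
  group

include hnc in
/-- triviality of `F g` forces `g ∈ C` -/
theorem mem_of_Fm {g : P} (hg : ∀ w : P, w * w = 1 → Fm h hC g w = 1) : g ∈ C := by
  apply hC.hcc
  intro t ht hz
  have hw : (t * t) * (t * t) = 1 := center_exp h hnc hz
  have := hg _ hw
  rw [Fm_eq h hC ht rfl hw] at this
  unfold cmt at this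
  rw [mul_inv_eq_one, mul_inv_eq_iff_eq_mul] at this
  exact this


/-- a fixed coset of `C` contains a fixed point -/
theorem fix_mod {k : MulAut P} (hk : k ∈ K) (hk1 : ∀ x : P, x ≠ 1 → k x ≠ x) {g : P}
    (hg : k g * g⁻¹ ∈ C) : g ∈ C := by
  haveI := h.finite
  let L : C →* C :=
    { toFun := fun c => ⟨(c : P)⁻¹ * k c, C.mul_mem (C.inv_mem c.2) (hC.inv k hk _ c.2)⟩
      map_one' := by
        apply Subtype.ext
        simp
      map_mul' := by
        intro x y
        apply Subtype.ext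
        show ((x : P) * y)⁻¹ * k ((x : P) * y) = (x : P)⁻¹ * k x * ((y : P)⁻¹ * k y)
        have h1 := hC.comm _ (hC.inv k hk _ x.2) _ (C.inv_mem y.2)
        rw [map_mul]
        calc ((x : P) * y)⁻¹ * (k x * k y) = (y : P)⁻¹ * ((x : P)⁻¹ * k x) * k y := by group
          _ = (x : P)⁻¹ * k x * (y : P)⁻¹ * k y := by
            rw [hC.comm _ (C.inv_mem y.2) _ (C.mul_mem (C.inv_mem x.2) (hC.inv k hk _ x.2))]
          _ = _ := by group }
  have hLinj : Function.Injective L := by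
    rw [injective_iff_map_eq_one]
    intro c hc
    have e : (c : P)⁻¹ * k c = 1 := congrArg Subtype.val hc
    have e' : k c = c := (inv_mul_eq_one.mp e).symm
    by_contra hne
    have hne' : (c : P) ≠ 1 := fun e2 => hne (Subtype.ext e2)
    exact hk1 _ hne' e'
  have hLs := Finite.injective_iff_surjective.mp hLinj
  obtain ⟨c, hc⟩ := hLs ⟨g * (k g)⁻¹, by
    have := C.inv_mem hg
    simpa using this⟩
  have e : (c : P)⁻¹ * k c = g * (k g)⁻¹ := congrArg Subtype.val hc
  have hfix : k ((c : P) * g) = (c : P) * g := by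
    rw [map_mul]
    have e2 : k c = c * (g * (k g)⁻¹) := by rw [← e, mul_inv_cancel_left]
    rw [e2]
    group
  by_cases h1 : (c : P) * g = 1
  · have : g = (c : P)⁻¹ := eq_inv_of_mul_eq_one_right h1
    rw [this]
    exact C.inv_mem c.2
  · exact absurd hfix (hk1 _ h1)

section Four

variable (hno : ∃ c ∈ C, (c * c) * (c * c) ≠ 1)

include hno

theorem exists_root4 {w : P} (hw : w * w = 1) : ∃ u ∈ C, (u * u) * (u * u) = w := by
  by_cases hw1 : w = 1
  · exact ⟨1, C.one_mem, by rw [hw1]; simp⟩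
  obtain ⟨c, hc, hc1⟩ := hno
  obtain ⟨n, h1, h2⟩ := exists_pow_invol h.pgroup hc1
  have e : ((c * c) * (c * c)) ^ n = (c ^ n * c ^ n) * (c ^ n * c ^ n) := by
    have e2 : ∀ x : P, (x * x) * (x * x) = x ^ 4 := by
      intro x
      simp only [pow_succ, pow_zero, one_mul, mul_assoc]
    have e1 : (c * c) * (c * c) = c ^ 4 := e2 c
    rw [e1, e2 (c ^ n), ← pow_mul, ← pow_mul, mul_comm]
  obtain ⟨k, hk, hkw⟩ := h.exists_k h1 h2 hw1 hw
  refine ⟨k (c ^ n), hC.inv k hk _ (C.pow_mem hc n), ?_⟩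
  rw [← map_mul, ← map_mul, ← e, hkw]

theorem idem (g : P) {w : P} (hw : w * w = 1) : Fm h hC g (Fm h hC g w) = Fm h hC g w := by
  obtain ⟨u, hu, e⟩ := exists_root4 h hC hno hw
  have hd := cmt_mem_of_mem h hC (g := g) hu
  set d := cmt g u with hddef
  have htC := C.mul_mem hu hu
  have hF : Fm h hC g w = d * d := by
    rw [Fm_eq h hC htC e hw]
    rw [hddef]
    unfold cmt
    have hc := hC.comm _ (hC.normal u hu g) _ (C.inv_mem hu)
    calc g * (u * u) * g⁻¹ * (u * u)⁻¹ = (g * u * g⁻¹) * (g * u * g⁻¹) * u⁻¹ * u⁻¹ := by group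
      _ = (g * u * g⁻¹) * ((g * u * g⁻¹) * u⁻¹) * u⁻¹ := by group
      _ = (g * u * g⁻¹) * (u⁻¹ * (g * u * g⁻¹)) * u⁻¹ := by rw [hc]
      _ = _ := by group
  have hsq := Fm_sq h hC g hw
  rw [hF] at hsq ⊢
  rw [Fm_eq h hC hd rfl hsq]
  -- `g` inverts `d`
  have hgg := hC.comm _ (hC.hsq g) _ hu
  have hinv : g * d * g⁻¹ = d⁻¹ := by
    rw [hddef]
    unfold cmt
    calc g * (g * u * g⁻¹ * u⁻¹) * g⁻¹ = ((g * g) * u) * (g * g)⁻¹ * (g * u⁻¹ * g⁻¹) := by group
      _ = (u * (g * g)) * (g * g)⁻¹ * (g * u⁻¹ * g⁻¹) := by rw [hgg]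
      _ = u * (g * u⁻¹ * g⁻¹) := by group
      _ = _ := by group
  unfold cmt
  rw [hinv]
  have : d⁻¹ * d⁻¹ = (d * d)⁻¹ := by group
  rw [this]
  exact inv_eq_of_mul_eq_one_left hsq

theorem comm_F (g g' : P) {w : P} (hw : w * w = 1) :
    Fm h hC g (Fm h hC g' w) = Fm h hC g' (Fm h hC g w) := by
  have h1 := idem h hC hno (g * g') hw
  have hv := Fm_sq h hC g hw
  have hv' := Fm_sq h hC g' hw
  rw [Fm_mul_l h hC g g' hw, Fm_mul_l h hC g g' ((TCtx.mem_Om h).mp (h.Om.mul_mem hv hv')),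
    Fm_mul_r h hC g hv hv', Fm_mul_r h hC g' hv hv', idem h hC hno g hw, idem h hC hno g' hw] at h1
  set v := Fm h hC g w
  set v' := Fm h hC g' w
  set A := Fm h hC g v'
  set A' := Fm h hC g' v
  have hA : A * A = 1 := Fm_sq h hC g hv'
  have hA' : A' * A' = 1 := Fm_sq h hC g' hv
  have hc1 := invol_comm h hA'
  have hc2 := invol_comm h hA
  have e : v * A * (A' * v') = v * (A * A') * v' := by group
  rw [e] at h1
  have e2 : A * A' = 1 := by
    have := mul_right_cancel h1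
    exact mul_eq_left.mp this
  have : A = A'⁻¹ := eq_inv_of_mul_eq_one_left e2
  rw [this]
  exact inv_eq_of_mul_eq_one_left hA'

end Four

/-- the set of `l ∈ K` for which `F (l g)` fixes `v` -/
def Rset (h : TCtx K) (hC : Sec K C) (g v : P) : Set K := {l | Fm h hC ((l : MulAut P) g) v = v}

theorem Rset_image (g : P) {v : P} (hv : v * v = 1) (m : K) :
    (fun l => m * l) '' Rset h hC g v = Rset h hC g ((m : MulAut P) v) := by
  ext l
  constructor
  · rintro ⟨l', hl', rfl⟩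
    show Fm h hC (((m * l' : K) : MulAut P) g) _ = _
    have : (((m * l' : K) : MulAut P) g) = (m : MulAut P) ((l' : MulAut P) g) := rfl
    rw [this, ← Fm_equi h hC m.2 _ hv, show Fm h hC ((l' : MulAut P) g) v = v from hl']
  · intro hl
    refine ⟨m⁻¹ * l, ?_, by group⟩
    have hl' : Fm h hC ((l : MulAut P) g) ((m : MulAut P) v) = (m : MulAut P) v := hl
    show Fm h hC (((m⁻¹ * l : K) : MulAut P) g) v = v
    have e1 : (l : MulAut P) g = (m : MulAut P) (((m⁻¹ * l : K) : MulAut P) g) := by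
      show _ = ((m * (m⁻¹ * l) : K) : MulAut P) g
      rw [mul_inv_cancel_left]
    rw [e1, ← Fm_equi h hC m.2 _ hv] at hl'
    exact (MulEquiv.injective _) hl'

theorem Rset_ncard (g : P) {v v' : P} (hv : v * v = 1) (hv1 : v ≠ 1) (hv' : v' * v' = 1)
    (hv1' : v' ≠ 1) : (Rset h hC g v).ncard = (Rset h hC g v').ncard := by
  obtain ⟨m, hm₀, hm⟩ := h.exists_k hv1 hv hv1' hv'
  rw [← hm]
  have := Rset_image h hC g hv ⟨m, hm₀⟩
  rw [show (((⟨m, hm₀⟩ : K) : MulAut P)) = m from rfl] at this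
  rw [← this]
  exact (Set.ncard_image_of_injective _ (mul_right_injective _)).symm

theorem triv_or_id (hno : ∃ c ∈ C, (c * c) * (c * c) ≠ 1) (g : P) :
    (∀ w : P, w * w = 1 → Fm h hC g w = 1) ∨ (∀ w : P, w * w = 1 → Fm h hC g w = w) := by
  haveI := h.finite
  by_contra hcon
  push Not at hcon
  obtain ⟨⟨w₁, hw₁, h1⟩, ⟨w₂, hw₂, h2⟩⟩ := hcon
  set x := Fm h hC g w₁ with hxdef
  have hx2 : x * x = 1 := Fm_sq h hC g hw₁
  have hx : Fm h hC g x = x := idem h hC hno g hw₁
  have hv2 := Fm_sq h hC g hw₂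
  set y := w₂ * Fm h hC g w₂ with hydef
  have hy2 : y * y = 1 := (TCtx.mem_Om h).mp (h.Om.mul_mem hw₂ hv2)
  have hy : Fm h hC g y = 1 := by
    rw [hydef, Fm_mul_r h hC g hw₂ hv2, idem h hC hno g hw₂]
    exact Fm_sq h hC g hw₂
  have hy1 : y ≠ 1 := by
    intro e
    apply h2
    have : w₂ = (Fm h hC g w₂)⁻¹ := eq_inv_of_mul_eq_one_left e
    rw [this, inv_eq_of_mul_eq_one_left hv2]
    exact (idem h hC hno g hw₂)
  have hxy2 : (x * y) * (x * y) = 1 := (TCtx.mem_Om h).mp (h.Om.mul_mem hx2 hy2)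
  have hxy1 : x * y ≠ 1 := by
    intro e
    have : x = y⁻¹ := eq_inv_of_mul_eq_one_left e
    rw [inv_eq_of_mul_eq_one_left hy2] at this
    rw [this, hy] at hx
    exact hy1 hx.symm
  have hsub : Rset h hC g (x * y) ⊆ Rset h hC g x ∩ Rset h hC g y := by
    intro l hl
    have hl' : Fm h hC ((l : MulAut P) g) (x * y) = x * y := hl
    have e1 := comm_F h hC hno g ((l : MulAut P) g) (w := x * y) hxy2
    rw [hl', Fm_mul_r h hC g hx2 hy2, hx, hy, mul_one] at e1
    -- `e1 : x * y ↦ x`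
    have hlx : Fm h hC ((l : MulAut P) g) x = x := by
      calc Fm h hC ((l : MulAut P) g) x = x := by exact e1.symm
        _ = x := rfl
    have hly : Fm h hC ((l : MulAut P) g) y = y := by
      have e3 := Fm_mul_r h hC ((l : MulAut P) g) hx2 hy2
      rw [hl', hlx] at e3
      exact (mul_left_cancel e3).symm
    exact ⟨hlx, hly⟩
  have hcardx := Rset_ncard h hC g hxy2 hxy1 hx2 h1
  have hsub2 : Rset h hC g (x * y) ⊆ Rset h hC g x := fun l hl => (hsub hl).1
  have heq : Rset h hC g (x * y) = Rset h hC g x :=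
    Set.eq_of_subset_of_ncard_le hsub2 hcardx.ge (Set.toFinite _)
  have h1mem : (1 : K) ∈ Rset h hC g x := by
    show Fm h hC (((1 : K) : MulAut P) g) x = x
    exact hx
  rw [← heq] at h1mem
  have h3 := (hsub h1mem).2
  have h4 : Fm h hC g y = y := h3
  rw [hy] at h4
  exact hy1 h4.symm

include hnc hfp in
theorem four : ∀ c ∈ C, (c * c) * (c * c) = 1 := by
  by_contra hno
  push Not at hno
  have hF : ∀ g : P, g ∈ C := by
    intro g
    rcases triv_or_id h hC hno g with h1 | h1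
    · exact mem_of_Fm h hnc hC h1
    · exfalso
      obtain ⟨k, hk, hk1⟩ := hfp
      have hinv : ∀ w : P, w * w = 1 → Fm h hC g⁻¹ w = w := by
        intro w hw
        have e1 := Fm_mul_l h hC g⁻¹ g hw
        rw [inv_mul_cancel, Fm_of_mem h hC C.one_mem w hw, h1 w hw] at e1
        have := eq_inv_of_mul_eq_one_left e1.symm
        rw [this]
        exact inv_eq_of_mul_eq_one_left hw
      have hk' : ∀ w : P, w * w = 1 → Fm h hC (k g) w = w := by
        intro w hw
        have hw' : k⁻¹ w * k⁻¹ w = 1 := by rw [← map_mul, hw, map_one]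
        have := Fm_equi h hC hk g hw'
        rw [h1 _ hw'] at this
        simp only [MulAut.apply_inv_self] at this
        exact this.symm
      have hmem : k g * g⁻¹ ∈ C := by
        apply mem_of_Fm h hnc hC
        intro w hw
        rw [Fm_mul_l h hC _ _ hw, hk' w hw, hinv w hw, hw]
      have hg := fix_mod h hC hk hk1 hmem
      obtain ⟨x, -, -, hx, hx2, -, -⟩ := h.two
      have := Fm_of_mem h hC hg x hx2
      rw [h1 x hx2] at this
      exact hx this
  obtain ⟨x, y, hxy⟩ := hnc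
  exact hxy (hC.comm _ (hF x) _ (hF y))


/-- commutators lie in `C` -/
theorem cmt_mem (x y : P) : cmt x y ∈ C := by
  have e : cmt x y = ((x * y) * (x * y)) * (y⁻¹ * (x⁻¹ * x⁻¹) * y⁻¹⁻¹) * (y⁻¹ * y⁻¹) := by
    unfold cmt; group
  rw [e]
  exact C.mul_mem (C.mul_mem (hC.hsq _) (hC.normal _ (hC.hsq _) _)) (hC.hsq _)

/-- the fourth power -/
def Sf (g : P) : P := (g * g) * (g * g)

/-- the square of the commutator -/
def Bf (x y : P) : P := cmt x y * cmt x y

section Relations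

include hnc hfp

theorem Sf_sq (g : P) : Sf g * Sf g = 1 := four h hnc hC hfp _ (hC.hsq g)

theorem Bf_sq (x y : P) : Bf x y * Bf x y = 1 := four h hnc hC hfp _ (cmt_mem h hC x y)

theorem Bf_symm (x y : P) : Bf x y = Bf y x := by
  have e : cmt y x = (cmt x y)⁻¹ := by
    unfold cmt; group
  have e2 : Bf y x = (Bf x y)⁻¹ := by
    unfold Bf
    rw [e]
    group
  rw [e2]
  exact (inv_eq_of_mul_eq_one_left (Bf_sq h hnc hC hfp x y)).symm

omit h hnc hC hfp in
theorem Bf_self (x : P) : Bf x x = 1 := by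
  unfold Bf cmt
  group

theorem sq_central {c : P} (hc : c ∈ C) : (c * c) * (c * c) = 1 := four h hnc hC hfp c hc

theorem Bf_of_mem {c : P} (hc : c ∈ C) (y : P) : Bf c y = 1 := by
  have hcc := sq_central h hnc hC hfp hc
  have hd : y * c⁻¹ * y⁻¹ ∈ C := hC.normal _ (C.inv_mem hc) y
  have e : cmt c y = c * (y * c⁻¹ * y⁻¹) := by
    unfold cmt; group
  unfold Bf
  rw [e]
  have hcomm := hC.comm _ hd _ hc
  calc c * (y * c⁻¹ * y⁻¹) * (c * (y * c⁻¹ * y⁻¹))
      = c * ((y * c⁻¹ * y⁻¹) * c) * (y * c⁻¹ * y⁻¹) := by group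
    _ = c * (c * (y * c⁻¹ * y⁻¹)) * (y * c⁻¹ * y⁻¹) := by rw [hcomm]
    _ = (c * c) * (y * (c * c)⁻¹ * y⁻¹) := by group
    _ = 1 := by
      have hinv : (c * c)⁻¹ * (c * c)⁻¹ = 1 := by
        rw [← mul_inv_rev, hcc, inv_one]
      rw [invol_comm h hinv y, mul_inv_cancel_right, mul_inv_cancel]

theorem Bf_mul_l (x x' y : P) : Bf (x * x') y = Bf x y * Bf x' y := by
  have e : cmt (x * x') y = (x * cmt x' y * x⁻¹) * cmt x y := by
    unfold cmt; group
  have ha : x * cmt x' y * x⁻¹ ∈ C := hC.normal _ (cmt_mem h hC x' y) x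
  have hb := cmt_mem h hC x y
  unfold Bf at *
  rw [e]
  set a := x * cmt x' y * x⁻¹ with hadef
  set b := cmt x y
  have hcomm := hC.comm _ ha _ hb
  have e2 : a * a = x * (cmt x' y * cmt x' y) * x⁻¹ := by
    rw [hadef]; group
  have hs : (cmt x' y * cmt x' y) * (cmt x' y * cmt x' y) = 1 := Bf_sq h hnc hC hfp x' y
  rw [invol_comm h hs x, mul_inv_cancel_right] at e2
  calc a * b * (a * b) = a * (b * a) * b := by group
    _ = a * (a * b) * b := by rw [← hcomm]
    _ = (a * a) * (b * b) := by group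
    _ = (cmt x' y * cmt x' y) * (b * b) := by rw [e2]
    _ = (b * b) * (cmt x' y * cmt x' y) := (invol_comm h hs _).symm

theorem Bf_mul_r (x y y' : P) : Bf x (y * y') = Bf x y * Bf x y' := by
  rw [Bf_symm h hnc hC hfp, Bf_mul_l h hnc hC hfp, Bf_symm h hnc hC hfp y, Bf_symm h hnc hC hfp y']

theorem Bf_inv_l (x y : P) : Bf x⁻¹ y = Bf x y := by
  have e := Bf_mul_l h hnc hC hfp x⁻¹ x y
  rw [inv_mul_cancel, Bf_of_mem h hnc hC hfp C.one_mem] at e
  have := eq_inv_of_mul_eq_one_left e.symm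
  rw [this]
  exact inv_eq_of_mul_eq_one_left (Bf_sq h hnc hC hfp x y)

theorem Sf_mul (x y : P) : Sf (x * y) = Sf x * Sf y * Bf x y := by
  have hc' : cmt x⁻¹ y ∈ C := cmt_mem h hC _ _
  have e : (x * y) * (x * y) = (x * x) * cmt x⁻¹ y * (y * y) := by
    unfold cmt; group
  have hx := hC.hsq x
  have hy := hC.hsq y
  set c' := cmt x⁻¹ y with hc'def
  have h1 : Bf x y = c' * c' := by
    rw [← Bf_inv_l h hnc hC hfp x y]
    rfl
  have hcomm1 := hC.comm _ hx _ hc'
  have hcomm2 := hC.comm _ hx _ hy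
  have hcomm3 := hC.comm _ hc' _ hy
  unfold Sf
  rw [e, h1]
  set X := x * x
  set Y := y * y
  calc X * c' * Y * (X * c' * Y) = X * (c' * (Y * X)) * c' * Y := by group
    _ = X * (c' * (X * Y)) * c' * Y := by rw [hcomm2]
    _ = X * ((c' * X) * (Y * c')) * Y := by group
    _ = X * ((X * c') * (c' * Y)) * Y := by rw [hcomm1, hcomm3]
    _ = (X * X) * (c' * c') * (Y * Y) := by group
    _ = (X * X) * (Y * Y) * (c' * c') := by
      have hs : (c' * c') * (c' * c') = 1 := Bf_sq h hnc hC hfp x⁻¹ y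
      have hcc := invol_comm h hs (Y * Y)
      rw [mul_assoc (X * X) (c' * c') (Y * Y), ← hcc, ← mul_assoc]

theorem R2 (x g : P) : Fm h hC x (Sf g) = Bf x g * Fm h hC g (Bf x g) := by
  have e1 : Fm h hC x (Sf g) = cmt x (g * g) :=
    Fm_eq h hC (hC.hsq g) rfl (Sf_sq h hnc hC hfp g)
  have hc : cmt x g ∈ C := cmt_mem h hC _ _
  have e2 : Fm h hC g (Bf x g) = cmt g (cmt x g) :=
    Fm_eq h hC hc rfl (Bf_sq h hnc hC hfp x g)
  rw [e1, e2]
  set c := cmt x g with hcdef
  have hd : g * c * g⁻¹ ∈ C := hC.normal _ hc g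
  have hcomm := hC.comm _ hd _ (C.inv_mem hc)
  have hlhs : cmt x (g * g) = c * (g * c * g⁻¹) := by
    rw [hcdef]
    unfold cmt
    group
  rw [hlhs]
  show c * (g * c * g⁻¹) = (c * c) * (g * c * g⁻¹ * c⁻¹)
  calc c * (g * c * g⁻¹) = c * c * (c⁻¹ * (g * c * g⁻¹)) := by group
    _ = c * c * ((g * c * g⁻¹) * c⁻¹) := by rw [hcomm]
    _ = _ := by group

theorem Sf_mul_mem (g : P) {c : P} (hc : c ∈ C) : Sf (g * c) = Sf g := by
  rw [Sf_mul h hnc hC hfp, Bf_symm h hnc hC hfp, Bf_of_mem h hnc hC hfp hc]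
  have : Sf c = 1 := sq_central h hnc hC hfp hc
  rw [this, mul_one, mul_one]

theorem Bf_mul_mem_l (x y : P) {c : P} (hc : c ∈ C) : Bf (x * c) y = Bf x y := by
  rw [Bf_mul_l h hnc hC hfp, Bf_of_mem h hnc hC hfp hc, mul_one]

theorem Bf_mul_mem_r (x y : P) {c : P} (hc : c ∈ C) : Bf x (y * c) = Bf x y := by
  rw [Bf_mul_r h hnc hC hfp, Bf_symm h hnc hC hfp x c, Bf_of_mem h hnc hC hfp hc, mul_one]

omit hnc hfp in
theorem Fm_mul_mem (g : P) {c : P} (hc : c ∈ C) {w : P} (hw : w * w = 1) :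
    Fm h hC (g * c) w = Fm h hC g w := by
  rw [Fm_mul_l h hC g c hw, Fm_of_mem h hC hc w hw, mul_one]


end Relations

end Main

/-- the field structure on the involutions, and a scalar automorphism -/
structure FData (K : Subgroup (MulAut P)) {F : Type*} [Field F] (e : P → F) (d : F → P) (a₀ : F)
    (k₀ : MulAut P) : Prop where
  d_inv : ∀ x, d x * d x = 1
  e_d : ∀ x, e (d x) = x
  d_e : ∀ u, u * u = 1 → d (e u) = u
  e_mul : ∀ u v, u * u = 1 → v * v = 1 → e (u * v) = e u + e v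
  hk₀ : k₀ ∈ K
  e_k : ∀ u, u * u = 1 → e (k₀ u) = a₀ * e u
  a₀ne : a₀ ≠ 0
  a₀ne1 : a₀ ≠ 1
  hconj : ∀ σ τ ρ : F ≃+* F, ρ (a₀ / σ a₀) = a₀ / τ a₀ → σ = τ
  hfix : ∀ σ : F ≃+* F, σ ≠ 1 → Nat.card {x : F // σ x = x} ≤ orderOf a₀

namespace FData

variable {F : Type*} [Field F] {e : P → F} {d : F → P} {a₀ : F} {k₀ : MulAut P}
  (FD : FData K e d a₀ k₀)

include FD

theorem e_one : e 1 = 0 := by
  have h := FD.e_mul 1 1 (by simp) (by simp)
  rw [mul_one] at h
  exact left_eq_add.mp h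

theorem d_zero : d 0 = 1 := by
  have h := FD.d_e 1 (by simp)
  rwa [e_one FD] at h

theorem eq_one_of_e {u : P} (hu : u * u = 1) (h0 : e u = 0) : u = 1 := by
  have h := FD.d_e u hu
  rw [h0, d_zero FD] at h
  exact h.symm

theorem d_add (h : TCtx K) (x y : F) : d (x + y) = d x * d y := by
  have h1 := FD.e_mul _ _ (FD.d_inv x) (FD.d_inv y)
  rw [FD.e_d, FD.e_d] at h1
  rw [← h1]
  exact FD.d_e _ (h.invol_mul (FD.d_inv x) (FD.d_inv y))

theorem e_pow (h : TCtx K) (i : ℕ) {u : P} (hu : u * u = 1) : e ((k₀ ^ i) u) = a₀ ^ i * e u := by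
  induction i with
  | zero => simp
  | succ i ih =>
    have h1 : (k₀ ^ i) u * (k₀ ^ i) u = 1 := by rw [← map_mul, hu, map_one]
    rw [pow_succ', MulAut.mul_apply, FD.e_k _ h1, ih, pow_succ']
    ring

theorem fpf_pow (h : TCtx K) {i : ℕ} (hi : a₀ ^ i ≠ 1) {x : P} (hx : x ≠ 1) : (k₀ ^ i) x ≠ x := by
  intro hfix
  obtain ⟨n, h1, h2⟩ := exists_pow_invol h.pgroup hx
  have h3 : (k₀ ^ i) (x ^ n) = x ^ n := by rw [map_pow, hfix]
  have h4 := e_pow FD h i h2
  rw [h3] at h4
  have h5 : (a₀ ^ i - 1) * e (x ^ n) = 0 := by linear_combination -h4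
  rcases mul_eq_zero.mp h5 with h6 | h6
  · exact hi (sub_eq_zero.mp h6)
  · exact h1 (eq_one_of_e FD h2 h6)

theorem exists_fpf (h : TCtx K) : ∃ k ∈ K, ∀ x : P, x ≠ 1 → k x ≠ x := by
  refine ⟨k₀, FD.hk₀, fun x hx => ?_⟩
  have := fpf_pow FD h (i := 1) (by rw [pow_one]; exact FD.a₀ne1) hx
  rwa [pow_one] at this

end FData

open SZero in
/-- The squares are central, given the set-up. -/
theorem sq_center_of_sec {F : Type*} [Field F] [Fintype F] [CharP F 2] {e : P → F} {d : F → P}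
    {a₀ : F} {k₀ : MulAut P} (FD : FData K e d a₀ k₀) (h : TCtx K)
    (hnc : ∃ x y : P, x * y ≠ y * x) {C : Subgroup P} (hC : Sec K C) (g₀ : P) :
    g₀ * g₀ ∈ Subgroup.center P := by
  classical
  haveI := h.finite
  have hfp := FD.exists_fpf h
  haveI hCn : C.Normal := ⟨fun a ha x => hC.normal a ha x⟩
  have hQcomm : ∀ x y : P ⧸ C, x * y = y * x := by
    intro x y
    obtain ⟨a, rfl⟩ := QuotientGroup.mk_surjective x
    obtain ⟨b, rfl⟩ := QuotientGroup.mk_surjective y
    show ((a * b : P) : P ⧸ C) = ((b * a : P) : P ⧸ C)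
    rw [QuotientGroup.eq]
    have e : (a * b)⁻¹ * (b * a) = cmt b⁻¹ a⁻¹ := by
      unfold cmt; group
    rw [e]
    exact cmt_mem h hC _ _
  letI iQ : CommGroup (P ⧸ C) := { (QuotientGroup.Quotient.group C) with mul_comm := hQcomm }
  let mkY : P → Additive (P ⧸ C) := fun g => Additive.ofMul (g : P ⧸ C)
  have mkY_mul : ∀ a b, mkY (a * b) = mkY a + mkY b := fun _ _ => rfl
  have mkY_surj : ∀ y : Additive (P ⧸ C), ∃ g, y = mkY g := by
    intro y
    obtain ⟨g, hg⟩ := QuotientGroup.mk_surjective (Additive.toMul y)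
    refine ⟨g, ?_⟩
    show y = Additive.ofMul (g : P ⧸ C)
    rw [hg]
    rfl
  have mkY_zero : ∀ {c : P}, c ∈ C → mkY c = 0 := by
    intro c hc
    show Additive.ofMul (c : P ⧸ C) = 0
    rw [(QuotientGroup.eq_one_iff c).mpr hc]
    rfl
  have mkY_eq_zero : ∀ {g : P}, mkY g = 0 → g ∈ C := by
    intro g hg
    have : (g : P ⧸ C) = 1 := hg
    exact (QuotientGroup.eq_one_iff g).mp this
  let out : Additive (P ⧸ C) → P := fun y => Quotient.out (Additive.toMul y)
  have hout : ∀ g, ∃ c ∈ C, out (mkY g) = g * c := by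
    intro g
    obtain ⟨c, hc⟩ := QuotientGroup.mk_out_eq_mul C g
    exact ⟨c, c.2, hc⟩
  have hdi := FD.d_inv
  have hFinv : ∀ (g : P) (x : F), Fm h hC g (d x) * Fm h hC g (d x) = 1 :=
    fun g x => Fm_sq h hC g (hdi x)
  -- the map `T`
  have hTadd : ∀ (g : P) (x x' : F), e (Fm h hC g (d (x + x'))) =
      e (Fm h hC g (d x)) + e (Fm h hC g (d x')) := by
    intro g x x'
    rw [FD.d_add h, Fm_mul_r h hC g (hdi x) (hdi x'), FD.e_mul _ _ (hFinv g x) (hFinv g x')]
  have hTmul : ∀ (a b : P) (x : F), e (Fm h hC (a * b) (d x)) =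
      e (Fm h hC a (d x)) + e (Fm h hC b (d x)) := by
    intro a b x
    rw [Fm_mul_l h hC a b (hdi x), FD.e_mul _ _ (hFinv a x) (hFinv b x)]
  let Tg : P → (F →+ F) := fun g => AddMonoidHom.mk' (fun x => e (Fm h hC g (d x))) (hTadd g)
  have hTg_out : ∀ (g : P), Tg (out (mkY g)) = Tg g := by
    intro g
    obtain ⟨c, hc, hcg⟩ := hout g
    ext x
    show e (Fm h hC (out (mkY g)) (d x)) = e (Fm h hC g (d x))
    rw [hcg, Fm_mul_mem h hC g hc (hdi x)]
  have hTg_mul : ∀ a b, Tg (a * b) = Tg a + Tg b := by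
    intro a b
    ext x
    exact hTmul a b x
  let T : Additive (P ⧸ C) →+ F →+ F := AddMonoidHom.mk' (fun y => Tg (out y)) (by
    intro y y'
    obtain ⟨a, rfl⟩ := mkY_surj y
    obtain ⟨b, rfl⟩ := mkY_surj y'
    rw [← mkY_mul, hTg_out, hTg_out, hTg_out, hTg_mul])
  have hT : ∀ (g : P) (x : F), T (mkY g) x = e (Fm h hC g (d x)) := by
    intro g x
    show Tg (out (mkY g)) x = _
    rw [hTg_out]
    rfl
  -- the map `B`
  have hBinv : ∀ a b : P, Bf a b * Bf a b = 1 := fun a b => Bf_sq h hnc hC hfp a b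
  have hSinv : ∀ a : P, Sf a * Sf a = 1 := fun a => Sf_sq h hnc hC hfp a
  have hB_out : ∀ a b : P, e (Bf (out (mkY a)) (out (mkY b))) = e (Bf a b) := by
    intro a b
    obtain ⟨c, hc, hca⟩ := hout a
    obtain ⟨c', hc', hcb⟩ := hout b
    rw [hca, hcb, Bf_mul_mem_l h hnc hC hfp _ _ hc, Bf_mul_mem_r h hnc hC hfp _ _ hc']
  have hBl : ∀ a a' b : P, e (Bf (a * a') b) = e (Bf a b) + e (Bf a' b) := by
    intro a a' b
    rw [Bf_mul_l h hnc hC hfp, FD.e_mul _ _ (hBinv a b) (hBinv a' b)]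
  have hBr : ∀ a b b' : P, e (Bf a (b * b')) = e (Bf a b) + e (Bf a b') := by
    intro a b b'
    rw [Bf_mul_r h hnc hC hfp, FD.e_mul _ _ (hBinv a b) (hBinv a b')]
  let Bg : Additive (P ⧸ C) → (Additive (P ⧸ C) →+ F) := fun y =>
    AddMonoidHom.mk' (fun y' => e (Bf (out y) (out y'))) (by
      intro y₁ y₂
      obtain ⟨a, rfl⟩ := mkY_surj y
      obtain ⟨b, rfl⟩ := mkY_surj y₁
      obtain ⟨b', rfl⟩ := mkY_surj y₂
      rw [← mkY_mul, hB_out, hB_out, hB_out, hBr])
  let B : Additive (P ⧸ C) →+ Additive (P ⧸ C) →+ F := AddMonoidHom.mk' Bg (by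
    intro y₁ y₂
    refine AddMonoidHom.ext fun y' => ?_
    show e (Bf (out (y₁ + y₂)) (out y')) = e (Bf (out y₁) (out y')) + e (Bf (out y₂) (out y'))
    obtain ⟨a, rfl⟩ := mkY_surj y₁
    obtain ⟨a', rfl⟩ := mkY_surj y₂
    obtain ⟨b, rfl⟩ := mkY_surj y'
    rw [← mkY_mul, hB_out, hB_out, hB_out, hBl])
  have hB : ∀ a b : P, B (mkY a) (mkY b) = e (Bf a b) := by
    intro a b
    show e (Bf (out (mkY a)) (out (mkY b))) = _
    rw [hB_out]
  -- the map `S`
  let S : Additive (P ⧸ C) → F := fun y => e (Sf (out y))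
  have hS : ∀ g : P, S (mkY g) = e (Sf g) := by
    intro g
    obtain ⟨c, hc, hcg⟩ := hout g
    show e (Sf (out (mkY g))) = _
    rw [hcg, Sf_mul_mem h hnc hC hfp _ hc]
  -- the automorphism
  have hk₀C : ∀ c ∈ C, k₀ c ∈ C := fun c hc => hC.inv k₀ FD.hk₀ c hc
  let α : Additive (P ⧸ C) →+ Additive (P ⧸ C) :=
    MonoidHom.toAdditive (QuotientGroup.map C C k₀.toMonoidHom hk₀C)
  have hα : ∀ g : P, α (mkY g) = mkY (k₀ g) := fun _ => rfl
  have hαi : ∀ (i : ℕ) (g : P), α^[i] (mkY g) = mkY ((k₀ ^ i) g) := by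
    intro i g
    induction i with
    | zero => simp
    | succ i ih =>
      rw [Function.iterate_succ_apply', ih, hα, pow_succ']
      rfl
  have hD : Hyp T S B a₀ α := by
    refine
      { inj := ?_, hY := ?_, B_self := ?_, B_symm := ?_, S_add := ?_, R2 := ?_, equi := ?_,
        fpf := ?_, a₀ne := FD.a₀ne, a₀ne1 := FD.a₀ne1, hconj := FD.hconj, hfix := FD.hfix }
    · rw [injective_iff_map_eq_zero]
      intro y hy
      obtain ⟨g, rfl⟩ := mkY_surj y
      apply mkY_zero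
      apply mem_of_Fm h hnc hC
      intro w hw
      have h1 : T (mkY g) (e w) = 0 := by
        rw [hy]
        rfl
      rw [hT, FD.d_e w hw] at h1
      exact FData.eq_one_of_e FD (Fm_sq h hC g hw) h1
    · intro y
      obtain ⟨g, rfl⟩ := mkY_surj y
      rw [← mkY_mul]
      exact mkY_zero (hC.hsq g)
    · intro y
      obtain ⟨g, rfl⟩ := mkY_surj y
      rw [hB, Bf_self]
      exact FData.e_one FD
    · intro x y
      obtain ⟨a, rfl⟩ := mkY_surj x
      obtain ⟨b, rfl⟩ := mkY_surj y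
      rw [hB, hB, Bf_symm h hnc hC hfp]
    · intro x y
      obtain ⟨a, rfl⟩ := mkY_surj x
      obtain ⟨b, rfl⟩ := mkY_surj y
      rw [← mkY_mul, hS, hS, hS, hB, Sf_mul h hnc hC hfp,
        FD.e_mul _ _ (h.invol_mul (hSinv a) (hSinv b)) (hBinv a b), FD.e_mul _ _ (hSinv a) (hSinv b)]
    · intro a b
      obtain ⟨a, rfl⟩ := mkY_surj a
      obtain ⟨b, rfl⟩ := mkY_surj b
      rw [hS, hT, hB, hT, FD.d_e _ (hSinv b), FD.d_e _ (hBinv a b), R2 h hnc hC hfp,
        FD.e_mul _ _ (hBinv a b) (Fm_sq h hC b (hBinv a b))]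
    · intro y x
      obtain ⟨g, rfl⟩ := mkY_surj y
      rw [hα, hT, hT]
      have h1 : d (a₀ * x) = k₀ (d x) := by
        have h2 := FD.e_k _ (hdi x)
        rw [FD.e_d] at h2
        rw [← h2]
        apply FD.d_e
        rw [← map_mul, hdi x, map_one]
      rw [h1, ← Fm_equi h hC FD.hk₀ g (hdi x), FD.e_k _ (Fm_sq h hC g (hdi x))]
    · intro i y hi hy
      obtain ⟨g, rfl⟩ := mkY_surj y
      apply mkY_zero
      rw [hαi] at hy
      have hki : k₀ ^ i ∈ K := K.pow_mem FD.hk₀ i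
      have hfpi : ∀ x : P, x ≠ 1 → (k₀ ^ i) x ≠ x := fun x hx => FData.fpf_pow FD h hi hx
      apply fix_mod h hC hki hfpi
      have h1 : mkY ((k₀ ^ i) g * g⁻¹) = 0 := by
        rw [mkY_mul, hy, ← mkY_mul, mul_inv_cancel]
        exact mkY_zero C.one_mem
      exact mkY_eq_zero h1
  have h0 := SZero.main hD (mkY g₀)
  rw [hS] at h0
  have h1 := FData.eq_one_of_e FD (hSinv g₀) h0
  exact h.invol_center h1

/-- **Higman**: the squares are central. -/
theorem sq_center {F : Type*} [Field F] [Fintype F] [CharP F 2] {e : P → F} {d : F → P}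
    {a₀ : F} {k₀ : MulAut P} (FD : FData K e d a₀ k₀) (h : TCtx K)
    (hnc : ∃ x y : P, x * y ≠ y * x) (g : P) : g * g ∈ Subgroup.center P := by
  by_contra hg
  obtain ⟨C, hC⟩ := exists_sec h hnc ⟨g, hg⟩
  exact hg (sq_center_of_sec FD h hnc hC g)

end Cfsg.Agent.Lib.SuzukiSolv.Higman
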