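import Mathlib
import Cfsg.Agent.Lib.RankOne.FieldAut

/-!
# Hua's lemma for a large cyclic group of scalars

A biadditive alternating map `c` on a finite field `F` of characteristic two with
`c (a₀ u) (a₀ v) = a₀ c u v` vanishes, provided `σ a₀ * τ a₀ ≠ a₀` for distinct automorphisms
`σ, τ` of `F`.
-/

set_option autoImplicit false
set_option linter.unusedSectionVars false
set_option linter.style.haveILetI false

namespace Cfsg.Agent.Lib.SuzukiSolv.HuaGen

open Cfsg.Agent.Lib.RankOne.FieldAut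

variable {F : Type*} [Field F] [Fintype F] [CharP F 2]

theorem hua_gen (c : F →+ F →+ F) {a₀ : F} (ha : a₀ ≠ 0)
    (hnum : ∀ σ τ : F ≃+* F, σ ≠ τ → σ a₀ * τ a₀ ≠ a₀)
    (hequi : ∀ u v, c (a₀ * u) (a₀ * v) = a₀ * c u v)
    (halt : ∀ u, c u u = 0) (u v : F) : c u v = 0 := by
  classical
  haveI := finite_aut (F := F)
  letI := Fintype.ofFinite (F ≃+* F)
  obtain ⟨e, he⟩ := exists_repr_biadditive c
  -- the coefficients off the diagonal vanish
  have hd : ∀ σ τ : F ≃+* F, (e (σ, τ) * (σ a₀ * τ a₀) - a₀ * e (σ, τ)) = 0 := by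
    intro σ τ
    have h1 : ∀ x : F, ∀ y : F, ∑ τ : F ≃+* F, (∑ σ : F ≃+* F,
        (e (σ, τ) * (σ a₀ * τ a₀) - a₀ * e (σ, τ)) * σ x) * τ y = 0 := by
      intro x y
      have h2 := hequi x y
      rw [he, he, Fintype.sum_prod_type_right, Fintype.sum_prod_type_right, Finset.mul_sum] at h2
      rw [← sub_eq_zero, ← Finset.sum_sub_distrib] at h2
      rw [← h2]
      apply Finset.sum_congr rfl
      intro τ _
      rw [Finset.sum_mul, Finset.mul_sum, ← Finset.sum_sub_distrib]
      apply Finset.sum_congr rfl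
      intro σ _
      simp only [map_mul]
      ring
    have h3 : ∀ x : F, ∑ σ : F ≃+* F, (e (σ, τ) * (σ a₀ * τ a₀) - a₀ * e (σ, τ)) * σ x = 0 := by
      intro x
      exact coeff_eq_zero _ (h1 x) τ
    exact coeff_eq_zero _ h3 σ
  have hoff : ∀ σ τ : F ≃+* F, σ ≠ τ → e (σ, τ) = 0 := by
    intro σ τ hne
    have h1 := hd σ τ
    have h2 : e (σ, τ) * (σ a₀ * τ a₀ - a₀) = 0 := by linear_combination h1
    exact (mul_eq_zero.mp h2).resolve_right (sub_ne_zero.mpr (hnum σ τ hne))
  have hdiag : ∀ x y : F, c x y = ∑ σ : F ≃+* F, e (σ, σ) * (σ x * σ y) := by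
    intro x y
    rw [he, Fintype.sum_prod_type]
    apply Finset.sum_congr rfl
    intro σ _
    rw [Finset.sum_eq_single σ]
    · intro τ _ hτ
      simp only
      rw [hoff σ τ (Ne.symm hτ), zero_mul]
    · intro hno
      exact absurd (Finset.mem_univ _) hno
  -- the diagonal coefficients vanish
  have hd0 : ∀ σ : F ≃+* F, e (σ, σ) = 0 := by
    intro σ
    apply coeff_eq_zero (fun σ => e (σ, σ))
    intro w
    haveI : Fact (Nat.Prime 2) := ⟨Nat.prime_two⟩
    haveI : ExpChar F 2 := ExpChar.prime Nat.prime_two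
    have h1 := frobenius_apply_frobeniusEquiv_symm F 2 w
    rw [frobenius_def, pow_two] at h1
    set r := (frobeniusEquiv F 2).symm w with hr
    have h2 := halt r
    rw [hdiag] at h2
    rw [← h1]
    simp only [map_mul]
    exact h2
  rw [hdiag]
  apply Finset.sum_eq_zero
  intro σ _
  rw [hd0, zero_mul]

end Cfsg.Agent.Lib.SuzukiSolv.HuaGen
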