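import Mathlib
import Cfsg.Agent.Lib.Hup.Main
import Cfsg.Agent.Lib.Hup.Cnt
import Cfsg.Agent.Lib.RankOne.FieldAut

/-!
# The field model of a solvable group transitive on a vector space over `ZMod 2`

By Huppert's theorem the vectors are the elements of a finite field, the group acts semilinearly,
and the scalars in the group have order `M` with `M * m = 2 ^ n - 1`, `m ∣ n`.
-/

set_option autoImplicit false
set_option linter.unusedSectionVars false
set_option linter.style.haveILetI false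

namespace Cfsg.Agent.Lib.SuzukiSolv.Model

open Cfsg.Agent.Lib.Hup.Ann (Trans)

universe u

variable {V : Type u} [AddCommGroup V] [Module (ZMod 2) V] [Finite V]

/-- The field model. -/
theorem field_model [hf : Fact (Nat.Prime 2)] {H : Subgroup (V ≃ₗ[ZMod 2] V)} (htr : Trans H)
    (hsolv : Group.IsSolvable H) (h4 : 4 ≤ Nat.card V) :
    ∃ (F : Type) (_ : Field F) (_ : Fintype F) (_ : CharP F 2) (e : V ≃+ F) (a₀ : F) (h₀ : H)
      (n m : ℕ), (∀ v, e ((h₀ : V ≃ₗ[ZMod 2] V) v) = a₀ * e v) ∧ a₀ ≠ 0 ∧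
        Fintype.card F = 2 ^ n ∧ 2 ≤ n ∧ orderOf a₀ * m = 2 ^ n - 1 ∧ m ∣ n := by
  classical
  haveI hnt : Nontrivial V := by
    rw [← Finite.one_lt_card_iff_nontrivial]
    omega
  haveI : Module.Finite (ZMod 2) V := Module.Finite.of_finite
  haveI : Finite H := Cfsg.Agent.Lib.PermMod.MinNormal.finite_H H
  obtain ⟨k, hk⟩ : ∃ k, Nat.card V = 2 ^ k :=
    ⟨_, by simpa [Nat.card_zmod] using Module.natCard_eq_pow_finrank (K := ZMod 2) (V := V)⟩
  rcases Cfsg.Agent.Lib.Hup.Main.main_H htr hsolv with ⟨F, iF, iFt, e, hmain⟩ | hex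
  swap
  · exfalso
    have h2 : 2 ∣ Nat.card V := by
      rw [hk]
      apply dvd_pow_self
      rintro rfl
      simp only [pow_zero] at hk
      omega
    simp only [Set.mem_insert_iff, Set.mem_singleton_iff] at hex
    rcases hex with h | h | h | h | h | h <;> rw [h] at h2 <;> omega
  choose a σ hspec using hmain
  -- the field has characteristic two
  haveI hch : CharP F 2 := by
    apply CharTwo.of_one_ne_zero_of_two_eq_zero one_ne_zero
    have h1 : (2 : ZMod 2) • (e.symm 1) = 0 := by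
      have : (2 : ZMod 2) = 0 := rfl
      rw [this, zero_smul]
    rw [two_smul] at h1
    have h2 := congrArg e h1
    rw [map_add, e.apply_symm_apply, map_zero] at h2
    rw [← one_add_one_eq_two]
    exact h2
  have hsurj : ∀ x, ∃ v, e v = x := e.surjective
  have ha0 : ∀ h : H, a h ≠ 0 := by
    intro h h0
    obtain ⟨v, hv⟩ := exists_ne (0 : V)
    have h1 := hspec h ((h : V ≃ₗ[ZMod 2] V).symm v)
    rw [h0, zero_mul, LinearEquiv.apply_symm_apply] at h1
    exact hv ((map_eq_zero_iff e e.injective).mp h1)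
  have huniq : ∀ (c c' : F) (s s' : F ≃+* F), c ≠ 0 → (∀ x, c * s x = c' * s' x) →
      c = c' ∧ s = s' := by
    intro c c' s s' hc h
    have h1 := h 1
    rw [map_one, map_one, mul_one, mul_one] at h1
    refine ⟨h1, ?_⟩
    ext x
    have h2 := h x
    rw [← h1] at h2
    exact mul_left_cancel₀ hc h2
  have hmul : ∀ h h' : H, a (h * h') = a h * σ h (a h') ∧ σ (h * h') = σ h * σ h' := by
    intro h h'
    apply huniq _ _ _ _ (ha0 _)
    intro x
    obtain ⟨v, rfl⟩ := hsurj x
    rw [← hspec]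
    show e ((h : V ≃ₗ[ZMod 2] V) ((h' : V ≃ₗ[ZMod 2] V) v)) = _
    rw [hspec, hspec, map_mul, mul_assoc]
    rfl
  have hone : a 1 = 1 ∧ σ 1 = 1 := by
    apply huniq _ _ _ _ (ha0 1)
    intro x
    obtain ⟨v, rfl⟩ := hsurj x
    rw [← hspec]
    simp
  let Θ : H →* (F ≃+* F) := MonoidHom.mk' σ (fun h h' => (hmul h h').2)
  have hΘ : ∀ h : H, Θ h = σ h := fun _ => rfl
  have hker : ∀ h : Θ.ker, σ h.1 = 1 := fun h => h.2
  let κ : Θ.ker →* F :=
    { toFun := fun h => a h.1
      map_one' := hone.1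
      map_mul' := by
        intro x y
        show a (x.1 * y.1) = a x.1 * a y.1
        rw [(hmul x.1 y.1).1, hker x]
        rfl }
  have hκ : ∀ h : Θ.ker, κ h = a h.1 := fun _ => rfl
  have hκinj : Function.Injective κ := by
    intro x y hxy
    apply Subtype.ext
    apply Subtype.ext
    ext v
    apply e.injective
    rw [hspec, hspec, hker x, hker y]
    rw [hκ, hκ] at hxy
    rw [hxy]
  haveI : IsCyclic Θ.ker := isCyclic_of_injective_ringHom κ hκinj
  obtain ⟨g, hg⟩ := IsCyclic.exists_generator (α := Θ.ker)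
  have hord : orderOf (κ g) = Nat.card Θ.ker := by
    rw [orderOf_injective κ hκinj, orderOf_eq_card_of_forall_mem_zpowers hg]
  -- the degree
  letI := ZMod.algebra F 2
  haveI : Module.Finite (ZMod 2) F := Module.Finite.of_finite
  obtain ⟨n, hn⟩ : ∃ n, n = Module.finrank (ZMod 2) F := ⟨_, rfl⟩
  have hcard : Fintype.card F = 2 ^ n := by
    have h := Module.natCard_eq_pow_finrank (K := ZMod 2) (V := F)
    rw [Nat.card_eq_fintype_card, Nat.card_zmod, ← hn] at h
    exact h
  have hcardV : Nat.card V = 2 ^ n := by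
    rw [Nat.card_congr e.toEquiv, Nat.card_eq_fintype_card, hcard]
  have hne : κ g ≠ 0 := ha0 g.1
  obtain ⟨m, hm⟩ : orderOf (κ g) ∣ 2 ^ n - 1 := by
    apply orderOf_dvd_of_pow_eq_one
    rw [← hcard]
    exact FiniteField.pow_card_sub_one_eq_one _ hne
  have hn2 : 2 ≤ n := by
    by_contra hcon
    have h1 : n ≤ 1 := by omega
    have h2 : 2 ^ n ≤ 2 ^ 1 := Nat.pow_le_pow_right (by norm_num) h1
    rw [hcardV] at h4
    omega
  have hdvd : 2 ^ n - 1 ∣ Nat.card H := by
    rw [← hcardV]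
    exact Cfsg.Agent.Lib.Hup.Cnt.card_dvd_of_trans htr
  have hH : Nat.card Θ.ker * Nat.card Θ.range = Nat.card H := by
    rw [← Subgroup.index_ker, Subgroup.card_mul_index]
  have hr : Nat.card Θ.range ∣ n := by
    have h1 := Subgroup.card_subgroup_dvd_card Θ.range
    rwa [Cfsg.Agent.Lib.RankOne.FieldAut.card_aut, ← hn] at h1
  have hmn : m ∣ n := by
    refine dvd_trans ?_ hr
    rw [hm, hord, ← hH] at hdvd
    exact Nat.dvd_of_mul_dvd_mul_left Nat.card_pos hdvd
  refine ⟨F, iF, iFt, hch, e, κ g, g.1, n, m, ?_, hne, hcard, hn2, hm.symm, hmn⟩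
  intro v
  rw [hspec, hker g]
  rfl

end Cfsg.Agent.Lib.SuzukiSolv.Model
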