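import Mathlib
import Cfsg.Agent.Lib.SuzukiTwo.Basic
import Cfsg.Agent.Lib.SuzukiSolv.Central
import Cfsg.Agent.Lib.SuzukiSolv.Higman
import Cfsg.Agent.Lib.SuzukiSolv.HuaGen
import Cfsg.Agent.Lib.SuzukiSolv.FieldNum
import Cfsg.Agent.Lib.SuzukiSolv.Model

/-!
# From a solvable group transitive on the involutions to the field model

The involutions of a 2-group with a solvable group `Y` of automorphisms transitive on them form,
with the identity, an elementary abelian central subgroup. Huppert's theorem gives the field.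
-/

set_option autoImplicit false
set_option linter.unusedSectionVars false
set_option linter.style.haveILetI false

namespace Cfsg.Agent.Lib.SuzukiSolv.Setup

open Cfsg.Agent.Lib.SuzukiTwo.Basic Cfsg.Agent.Lib.SuzukiSolv.Central
  Cfsg.Agent.Lib.SuzukiSolv.Higman Cfsg.Agent.Lib.SuzukiSolv.FieldNum

universe u

variable {P : Type u} [Group P]

theorem invol_center [Finite P] (hp : IsPGroup 2 P) {Y : Subgroup (MulAut P)}
    (trans : ∀ x y : P, x ≠ 1 → x * x = 1 → y ≠ 1 → y * y = 1 → ∃ k ∈ Y, k x = y)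
    {x : P} (hx : x * x = 1) : x ∈ Subgroup.center P := by
  by_cases hx1 : x = 1
  · rw [hx1]
    exact Subgroup.one_mem _
  haveI : Nontrivial P := ⟨⟨x, 1, hx1⟩⟩
  haveI := hp.center_nontrivial
  obtain ⟨z, hz⟩ := exists_ne (1 : Subgroup.center P)
  have hz' : (z : P) ≠ 1 := fun e => hz (Subtype.ext e)
  obtain ⟨n, h1, h2⟩ := exists_pow_invol hp hz'
  obtain ⟨k, -, hk⟩ := trans _ _ h1 h2 hx1 hx
  rw [← hk]
  exact Ctx.aut_center (Subgroup.pow_mem _ z.2 n)

section Om

variable (hc : ∀ x : P, x * x = 1 → x ∈ Subgroup.center P)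

/-- the subgroup of elements with square one -/
def Om : Subgroup P where
  carrier := {x | x * x = 1}
  one_mem' := by simp
  mul_mem' := by
    intro a b ha hb
    simp only [Set.mem_setOf_eq] at ha hb ⊢
    have hc' := (Subgroup.mem_center_iff.mp (hc b hb)) a
    calc a * b * (a * b) = a * (b * a) * b := by group
      _ = a * (a * b) * b := by rw [← hc']
      _ = (a * a) * (b * b) := by group
      _ = 1 := by rw [ha, hb, one_mul]
  inv_mem' := by
    intro a ha
    simp only [Set.mem_setOf_eq] at ha ⊢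
    rw [← mul_inv_rev, ha, inv_one]

instance instCommOm : CommGroup (Om hc) :=
  { (inferInstance : Group (Om hc)) with
    mul_comm := by
      intro a b
      apply Subtype.ext
      exact ((Subgroup.mem_center_iff.mp (hc a.1 a.2)) b.1).symm }

/-- the vector space of involutions -/
abbrev VV := Additive (Om hc)

theorem two_nsmul_VV (v : VV hc) : 2 • v = 0 := by
  rw [two_nsmul]
  show Additive.ofMul (Additive.toMul v * Additive.toMul v) = 0
  have : Additive.toMul v * Additive.toMul v = 1 := Subtype.ext (Additive.toMul v).2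
  rw [this]
  rfl

instance instModVV : Module (ZMod 2) (VV hc) := AddCommGroup.zmodModule (two_nsmul_VV hc)

theorem map_mem (k : MulAut P) (v : VV hc) :
    k (Additive.toMul v).1 * k (Additive.toMul v).1 = 1 := by
  rw [← map_mul, (Additive.toMul v).2, map_one]

/-- the action on the vector space -/
def actA (k : MulAut P) : VV hc →+ VV hc :=
  AddMonoidHom.mk' (fun v => Additive.ofMul ⟨k (Additive.toMul v).1, map_mem hc k v⟩) (by
    intro a b
    apply Additive.toMul.injective
    apply Subtype.ext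
    show k ((Additive.toMul a).1 * (Additive.toMul b).1) = _
    rw [map_mul]
    rfl)

@[simp] theorem actA_val (k : MulAut P) (v : VV hc) :
    (Additive.toMul (actA hc k v)).1 = k (Additive.toMul v).1 := rfl

/-- the action by linear maps -/
def actL (k : MulAut P) : VV hc ≃ₗ[ZMod 2] VV hc :=
  LinearEquiv.ofLinear ((actA hc k).toZModLinearMap 2) ((actA hc k⁻¹).toZModLinearMap 2)
    (by
      ext v
      show k (k⁻¹ (Additive.toMul v).1) = _
      rw [← MulAut.mul_apply, mul_inv_cancel]
      rfl)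
    (by
      ext v
      show k⁻¹ (k (Additive.toMul v).1) = _
      rw [← MulAut.mul_apply, inv_mul_cancel]
      rfl)

theorem actL_val (k : MulAut P) (v : VV hc) :
    (Additive.toMul (actL hc k v)).1 = k (Additive.toMul v).1 := rfl

/-- the action, as a homomorphism -/
def phi : MulAut P →* (VV hc ≃ₗ[ZMod 2] VV hc) where
  toFun := actL hc
  map_one' := by
    apply LinearEquiv.ext
    intro v
    apply Subtype.ext
    rfl
  map_mul' := by
    intro a b
    apply LinearEquiv.ext
    intro v
    apply Subtype.ext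
    rfl

theorem phi_val (k : MulAut P) (v : VV hc) :
    (Additive.toMul (phi hc k v)).1 = k (Additive.toMul v).1 := rfl

end Om

/-- The model of the involutions. -/
theorem exists_model [Finite P] (hp : IsPGroup 2 P)
    (two : ∃ x y : P, x ≠ y ∧ x ≠ 1 ∧ x * x = 1 ∧ y ≠ 1 ∧ y * y = 1)
    {Y : Subgroup (MulAut P)} (hY : Group.IsSolvable Y)
    (trans : ∀ x y : P, x ≠ 1 → x * x = 1 → y ≠ 1 → y * y = 1 → ∃ k ∈ Y, k x = y) :
    ∃ (F : Type) (_ : Field F) (_ : Fintype F) (_ : CharP F 2) (e : P → F) (d : F → P) (a₀ : F)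
      (k₀ : MulAut P) (n m : ℕ),
      (∀ x, d x * d x = 1) ∧ (∀ x, e (d x) = x) ∧ (∀ u, u * u = 1 → d (e u) = u) ∧
      (∀ u v, u * u = 1 → v * v = 1 → e (u * v) = e u + e v) ∧ (∀ x y, d (x + y) = d x * d y) ∧
      k₀ ∈ Y ∧ (∀ u, u * u = 1 → e (k₀ u) = a₀ * e u) ∧ a₀ ≠ 0 ∧
      Fintype.card F = 2 ^ n ∧ 2 ≤ n ∧ orderOf a₀ * m = 2 ^ n - 1 ∧ m ∣ n := by
  classical
  haveI hf : Fact (Nat.Prime 2) := ⟨Nat.prime_two⟩
  have hc : ∀ x : P, x * x = 1 → x ∈ Subgroup.center P := fun x hx => invol_center hp trans hx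
  have htr : Cfsg.Agent.Lib.Hup.Ann.Trans (Y.map (phi hc)) := by
    intro v w hv hw
    have hv' : (Additive.toMul v).1 ≠ 1 := by
      intro h
      apply hv
      apply Additive.toMul.injective
      exact Subtype.ext h
    have hw' : (Additive.toMul w).1 ≠ 1 := by
      intro h
      apply hw
      apply Additive.toMul.injective
      exact Subtype.ext h
    obtain ⟨k, hk, hkv⟩ := trans _ _ hv' (Additive.toMul v).2 hw' (Additive.toMul w).2
    refine ⟨⟨phi hc k, Subgroup.mem_map_of_mem _ hk⟩, ?_⟩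
    apply Additive.toMul.injective
    apply Subtype.ext
    exact hkv
  have hsolv : Group.IsSolvable (Y.map (phi hc)) := by
    haveI := hY
    exact Group.isSolvable_of_surjective ((phi hc).subgroupMap_surjective Y)
  have h4 : 4 ≤ Nat.card (VV hc) := by
    obtain ⟨x, y, hxy, hx1, hx2, hy1, hy2⟩ := two
    haveI : Module.Finite (ZMod 2) (VV hc) := Module.Finite.of_finite
    have hk := Module.natCard_eq_pow_finrank (K := ZMod 2) (V := VV hc)
    rw [Nat.card_zmod] at hk
    let v0 : VV hc := 0
    let vx : VV hc := Additive.ofMul ⟨x, hx2⟩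
    let vy : VV hc := Additive.ofMul ⟨y, hy2⟩
    have h01 : v0 ≠ vx := by
      intro h
      apply hx1
      exact (congrArg (fun v : VV hc => (Additive.toMul v).1) h).symm
    have h02 : v0 ≠ vy := by
      intro h
      apply hy1
      exact (congrArg (fun v : VV hc => (Additive.toMul v).1) h).symm
    have h12 : vx ≠ vy := by
      intro h
      apply hxy
      exact congrArg (fun v : VV hc => (Additive.toMul v).1) h
    letI := Fintype.ofFinite (VV hc)
    have h3 : 3 ≤ Nat.card (VV hc) := by
      rw [Nat.card_eq_fintype_card]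
      have := Finset.card_le_univ ({v0, vx, vy} : Finset (VV hc))
      rwa [Finset.card_eq_three.mpr ⟨v0, vx, vy, h01, h02, h12, rfl⟩] at this
    generalize Module.finrank (ZMod 2) (VV hc) = r at hk
    rw [hk] at h3 ⊢
    by_contra hcon
    have hr : r ≤ 1 := by
      by_contra hr
      have : 2 ^ 2 ≤ 2 ^ r := Nat.pow_le_pow_right (by norm_num) (by omega)
      omega
    have : 2 ^ r ≤ 2 ^ 1 := Nat.pow_le_pow_right (by norm_num) hr
    omega
  obtain ⟨F, iF, iFt, hch, e, a₀, ⟨_, k₀, hk₀, rfl⟩, n, m, hspec, ha, hcard, hn, hM, hmn⟩ :=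
    Cfsg.Agent.Lib.SuzukiSolv.Model.field_model htr hsolv h4
  refine ⟨F, iF, iFt, hch, fun u => if hu : u * u = 1 then e (Additive.ofMul ⟨u, hu⟩) else 0,
    fun x => (Additive.toMul (e.symm x)).1, a₀, k₀, n, m, ?_, ?_, ?_, ?_, ?_, hk₀, ?_, ha, hcard, hn,
    hM, hmn⟩
  · intro x
    exact (Additive.toMul (e.symm x)).2
  · intro x
    have hx : (Additive.toMul (e.symm x)).1 * (Additive.toMul (e.symm x)).1 = 1 :=
      (Additive.toMul (e.symm x)).2
    show (if hu : _ then _ else _) = x
    rw [dif_pos hx]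
    have : (Additive.ofMul ⟨(Additive.toMul (e.symm x)).1, hx⟩ : VV hc) = e.symm x := rfl
    rw [this, e.apply_symm_apply]
  · intro u hu
    show (Additive.toMul (e.symm (if hu : _ then _ else _))).1 = u
    rw [dif_pos hu, e.symm_apply_apply]
    rfl
  · intro u v hu hv
    have huv : (u * v) * (u * v) = 1 := (Om hc).mul_mem hu hv
    show (if hu : _ then _ else _) = (if hu : _ then _ else _) + (if hu : _ then _ else _)
    rw [dif_pos huv, dif_pos hu, dif_pos hv, ← map_add]
    rfl
  · intro x y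
    show (Additive.toMul (e.symm (x + y))).1 = _
    rw [map_add]
    rfl
  · intro u hu
    have hku : k₀ u * k₀ u = 1 := by rw [← map_mul, hu, map_one]
    show (if hu : _ then _ else _) = a₀ * (if hu : _ then _ else _)
    rw [dif_pos hu, dif_pos hku, ← hspec]
    rfl

/-- Putting everything together. -/
theorem exists_data [Finite P] (hp : IsPGroup 2 P)
    (two : ∃ x y : P, x ≠ y ∧ x ≠ 1 ∧ x * x = 1 ∧ y ≠ 1 ∧ y * y = 1)
    {Y : Subgroup (MulAut P)} (hY : Group.IsSolvable Y)
    (trans : ∀ x y : P, x ≠ 1 → x * x = 1 → y ≠ 1 → y * y = 1 → ∃ k ∈ Y, k x = y) :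
    ∃ (F : Type) (_ : Field F) (_ : Fintype F) (_ : CharP F 2) (e : P → F) (d : F → P) (a₀ : F)
      (k₀ : MulAut P), TCtx Y ∧ FData Y e d a₀ k₀ := by
  obtain ⟨F, iF, iFt, hch, e, d, a₀, k₀, n, m, h1, h2, h3, h4, h5, hk₀, h6, ha, hcard, hn, hM, hmn⟩ :=
    exists_model hp two hY trans
  refine ⟨F, iF, iFt, hch, e, d, a₀, k₀, ?_, ?_⟩
  · refine ⟨inferInstance, hp, two, trans, ?_⟩
    intro c hinv hl hr halt hequi u v hu hv
    have hdak : ∀ x, d (a₀ * x) = k₀ (d x) := by
      intro x
      have h7 := h6 _ (h1 x)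
      rw [h2] at h7
      rw [← h7]
      apply h3
      rw [← map_mul, h1 x, map_one]
    have hinvc : ∀ x y, c (d x) (d y) * c (d x) (d y) = 1 := fun x y => hinv _ _ (h1 x) (h1 y)
    let cg : F → (F →+ F) := fun x => AddMonoidHom.mk' (fun y => e (c (d x) (d y))) (by
      intro y y'
      rw [h5, hr _ _ _ (h1 x) (h1 y) (h1 y'), h4 _ _ (hinvc x y) (hinvc x y')])
    let c' : F →+ F →+ F := AddMonoidHom.mk' cg (by
      intro x x'
      refine AddMonoidHom.ext fun y => ?_
      show e (c (d (x + x')) (d y)) = e (c (d x) (d y)) + e (c (d x') (d y))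
      rw [h5, hl _ _ _ (h1 x) (h1 x') (h1 y), h4 _ _ (hinvc x y) (hinvc x' y)])
    have hc' : ∀ x y, c' x y = e (c (d x) (d y)) := fun _ _ => rfl
    have key := Cfsg.Agent.Lib.SuzukiSolv.HuaGen.hua_gen c' ha (hnum hcard hn ha hM hmn)
      (by
        intro x y
        rw [hc', hc', hdak, hdak, hequi k₀ hk₀ _ _ (h1 x) (h1 y), h6 _ (hinvc x y)])
      (by
        intro x
        rw [hc', halt _ (h1 x)]
        have := h2 0
        have h8 := h3 1 (by simp)
        have e0 : e 1 = 0 := by
          have := h4 1 1 (by simp) (by simp)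
          rw [mul_one] at this
          exact left_eq_add.mp this
        exact e0)
      (e u) (e v)
    rw [hc', h3 u hu, h3 v hv] at key
    have h9 := h3 _ (hinv u v hu hv)
    rw [key] at h9
    have h10 : d 0 = 1 := by
      have h8 := h3 1 (by simp)
      have e0 : e 1 = 0 := by
        have := h4 1 1 (by simp) (by simp)
        rw [mul_one] at this
        exact left_eq_add.mp this
      rwa [e0] at h8
    rw [← h9, h10]
  · exact
      { d_inv := h1, e_d := h2, d_e := h3, e_mul := h4, hk₀ := hk₀, e_k := h6, a₀ne := ha,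
        a₀ne1 := a₀ne1 hn hM hmn, hconj := hconj hcard hn ha hM hmn,
        hfix := hfix hcard hn hM hmn }

end Cfsg.Agent.Lib.SuzukiSolv.Setup
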